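import Mathlib
import Cfsg.Agent.Lib.Elusive.SpElt
import Cfsg.Agent.Lib.Elusive.SpIndex

/-!
# The `L`-bilinear form attached to a self-adjoint field action

`L/F` a finite extension of fields acting on `V`, `B` an alternating non-degenerate `F`-form for which
`L` acts by self-adjoint maps, with `B (a u) u = 0`. Then `B = τ ∘ β` with `β` an alternating
non-degenerate `L`-form.
-/

set_option autoImplicit false

namespace Cfsg.Agent.Lib.ElusK.Beta

open Module Cfsg.Agent.Lib.Elusive.Sympl

variable {F L V : Type*} [Field F] [Field L] [Algebra F L] [AddCommGroup V] [Module F V] [Module L V]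
  [IsScalarTower F L V]

/-- The hypotheses on the pair. -/
structure KForm (L : Type*) [Field L] [Algebra F L] [Module L V] (B : LinearMap.BilinForm F V) : Prop where
  alt : B.IsAlt
  nd : NondegOn B ⊤
  sa : ∀ (a : L) (u v : V), B (a • u) v = B u (a • v)
  kalt : ∀ (a : L) (u : V), B (a • u) u = 0

omit [AddCommGroup V] [Module F V] [Module L V] [IsScalarTower F L V] in
/-- A functional nonzero at `1`. -/
theorem exists_tau : ∃ τ : L →ₗ[F] F, τ 1 ≠ 0 := by
  by_contra h
  push Not at h
  exact one_ne_zero ((Module.forall_dual_apply_eq_zero_iff F (1 : L)).1 h)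

omit [AddCommGroup V] [Module F V] [Module L V] [IsScalarTower F L V] in
/-- Uniqueness for the trace pairing. -/
theorem tau_unique (τ : L →ₗ[F] F) (hτ : τ 1 ≠ 0) {b b' : L} (h : ∀ a, τ (a * b) = τ (a * b')) : b = b' := by
  by_contra hne
  have hs : b - b' ≠ 0 := sub_ne_zero.2 hne
  have h1 := h (b - b')⁻¹
  rw [← sub_eq_zero, ← map_sub, ← mul_sub, inv_mul_cancel₀ hs] at h1
  exact hτ h1

omit [AddCommGroup V] [Module F V] [Module L V] [IsScalarTower F L V] in
/-- Existence for the trace pairing. -/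
theorem tau_exists [FiniteDimensional F L] (τ : L →ₗ[F] F) (hτ : τ 1 ≠ 0) (φ : L →ₗ[F] F) :
    ∃ b : L, ∀ a, φ a = τ (a * b) := by
  let Φ : L →ₗ[F] Module.Dual F L :=
    { toFun := fun b => τ ∘ₗ (LinearMap.mulRight F b)
      map_add' := fun x y => by
        ext a
        simp [mul_add]
      map_smul' := fun c x => by
        ext a
        simp [mul_smul_comm] }
  have hΦ : ∀ a b, Φ b a = τ (a * b) := fun a b => rfl
  have hinj : Function.Injective Φ := by
    intro b b' hb
    refine tau_unique τ hτ fun a => ?_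
    rw [← hΦ, ← hΦ, hb]
  have hsurj : Function.Surjective Φ :=
    (LinearMap.injective_iff_surjective_of_finrank_eq_finrank (Subspace.dual_finrank_eq).symm).1 hinj
  obtain ⟨b, hb⟩ := hsurj φ
  exact ⟨b, fun a => by rw [← hΦ, hb]⟩

/-- The functional attached to `u`, `v`. -/
def phi (B : LinearMap.BilinForm F V) (L : Type*) [Field L] [Algebra F L] [Module L V] [IsScalarTower F L V]
    (u v : V) : L →ₗ[F] F where
  toFun a := B (a • u) v
  map_add' a b := by simp [add_smul]
  map_smul' c a := by simp [smul_assoc]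

@[simp] theorem phi_apply (B : LinearMap.BilinForm F V) (u v : V) (a : L) : phi B L u v a = B (a • u) v := rfl

variable [FiniteDimensional F L]

/-- The `L`-valued form. -/
noncomputable def betaFun (B : LinearMap.BilinForm F V) (τ : L →ₗ[F] F) (hτ : τ 1 ≠ 0) (u v : V) : L :=
  Classical.choose (tau_exists τ hτ (phi B L u v))

theorem betaFun_spec (B : LinearMap.BilinForm F V) (τ : L →ₗ[F] F) (hτ : τ 1 ≠ 0) (u v : V) (a : L) :
    B (a • u) v = τ (a * betaFun B τ hτ u v) :=
  Classical.choose_spec (tau_exists τ hτ (phi B L u v)) a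

/-- The `L`-bilinear form. -/
noncomputable def beta {B : LinearMap.BilinForm F V} (hk : KForm L B) (τ : L →ₗ[F] F) (hτ : τ 1 ≠ 0) :
    LinearMap.BilinForm L V :=
  LinearMap.mk₂ L (betaFun B τ hτ)
    (fun u u' v => by
      refine tau_unique τ hτ fun a => ?_
      rw [mul_add, map_add, ← betaFun_spec, ← betaFun_spec, ← betaFun_spec, smul_add, map_add, LinearMap.add_apply])
    (fun c u v => by
      refine tau_unique τ hτ fun a => ?_
      rw [smul_eq_mul, ← mul_assoc, ← betaFun_spec, ← betaFun_spec, mul_smul])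
    (fun u v v' => by
      refine tau_unique τ hτ fun a => ?_
      rw [mul_add, map_add, ← betaFun_spec, ← betaFun_spec, ← betaFun_spec, map_add])
    (fun c u v => by
      refine tau_unique τ hτ fun a => ?_
      rw [smul_eq_mul, ← mul_assoc, ← betaFun_spec, ← hk.sa, smul_smul, mul_comm c a, ← betaFun_spec])

theorem beta_apply {B : LinearMap.BilinForm F V} (hk : KForm L B) (τ : L →ₗ[F] F) (hτ : τ 1 ≠ 0) (u v : V) :
    beta hk τ hτ u v = betaFun B τ hτ u v := rfl

theorem form_eq {B : LinearMap.BilinForm F V} (hk : KForm L B) (τ : L →ₗ[F] F) (hτ : τ 1 ≠ 0) (a : L) (u v : V) :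
    B (a • u) v = τ (a * beta hk τ hτ u v) := betaFun_spec B τ hτ u v a

theorem form_eq_one {B : LinearMap.BilinForm F V} (hk : KForm L B) (τ : L →ₗ[F] F) (hτ : τ 1 ≠ 0) (u v : V) :
    B u v = τ (beta hk τ hτ u v) := by
  have h := form_eq hk τ hτ 1 u v
  rwa [one_smul, one_mul] at h

theorem beta_alt {B : LinearMap.BilinForm F V} (hk : KForm L B) (τ : L →ₗ[F] F) (hτ : τ 1 ≠ 0) :
    (beta hk τ hτ).IsAlt := by
  intro u
  refine tau_unique τ hτ fun a => ?_
  rw [← form_eq hk τ hτ, hk.kalt, mul_zero, map_zero]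

theorem beta_nd {B : LinearMap.BilinForm F V} (hk : KForm L B) (τ : L →ₗ[F] F) (hτ : τ 1 ≠ 0) {u : V}
    (h : ∀ v, beta hk τ hτ u v = 0) : u = 0 := by
  by_contra hu
  obtain ⟨w, -, hw⟩ := hk.nd u Submodule.mem_top hu
  apply hw
  rw [form_eq_one hk τ hτ, h, map_zero]

/-- Isometries of `β` are isometries of `B`. -/
theorem iso_of_beta {B : LinearMap.BilinForm F V} (hk : KForm L B) (τ : L →ₗ[F] F) (hτ : τ 1 ≠ 0)
    {g : V → V} (hg : ∀ u v, beta hk τ hτ (g u) (g v) = beta hk τ hτ u v) (u v : V) :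
    B (g u) (g v) = B u v := by
  rw [form_eq_one hk τ hτ, hg, ← form_eq_one hk τ hτ]

/-- `L`-linear isometries of `B` are isometries of `β`. -/
theorem beta_of_iso {B : LinearMap.BilinForm F V} (hk : KForm L B) (τ : L →ₗ[F] F) (hτ : τ 1 ≠ 0)
    {g : V → V} (hgL : ∀ (a : L) v, g (a • v) = a • g v) (hg : ∀ u v, B (g u) (g v) = B u v) (u v : V) :
    beta hk τ hτ (g u) (g v) = beta hk τ hτ u v := by
  refine tau_unique τ hτ fun a => ?_
  rw [← form_eq hk τ hτ, ← form_eq hk τ hτ, ← hgL, hg]

end Cfsg.Agent.Lib.ElusK.Beta
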