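import Mathlib
import Cfsg.Agent.Lib.ElusK.Beta

/-!
# Isometries commuting with the field action, and semilinear maps
-/

set_option autoImplicit false

namespace Cfsg.Agent.Lib.ElusK.Act

open Module Cfsg.Agent.Lib.Elusive.Sympl Cfsg.Agent.Lib.ElusK.Beta

variable {F L V : Type*} [Field F] [Field L] [Algebra F L] [AddCommGroup V] [Module F V] [Module L V]
  [IsScalarTower F L V]

/-- The `L`-linear version of a map commuting with `L`. -/
def linL (y : V →ₗ[F] V) (hy : ∀ (a : L) v, y (a • v) = a • y v) : V →ₗ[L] V where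
  toFun := y
  map_add' := y.map_add
  map_smul' := hy

@[simp] theorem linL_apply (y : V →ₗ[F] V) (hy : ∀ (a : L) v, y (a • v) = a • y v) (v : V) :
    linL y hy v = y v := rfl

theorem linL_pow (y : V →ₗ[F] V) (hy : ∀ (a : L) v, y (a • v) = a • y v) (n : ℕ) (v : V) :
    (linL y hy ^ n) v = (y ^ n) v := by
  induction n generalizing v with
  | zero => simp
  | succ n ih => rw [pow_succ, pow_succ, Module.End.mul_apply, Module.End.mul_apply, ih, linL_apply]

/-- The moved space, over `L`. -/
def moved (y : V →ₗ[F] V) (hy : ∀ (a : L) v, y (a • v) = a • y v) : Submodule L V :=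
  LinearMap.range (linL y hy - 1)

theorem moved_restrict (y : V →ₗ[F] V) (hy : ∀ (a : L) v, y (a • v) = a • y v) :
    (moved y hy).restrictScalars F = LinearMap.range (y - 1) := by
  ext v
  rw [Submodule.restrictScalars_mem]
  constructor
  · rintro ⟨t, rfl⟩
    exact ⟨t, rfl⟩
  · rintro ⟨t, rfl⟩
    exact ⟨t, rfl⟩

theorem finrank_moved [FiniteDimensional F L] [FiniteDimensional F V]
    (y : V →ₗ[F] V) (hy : ∀ (a : L) v, y (a • v) = a • y v) :
    finrank F (LinearMap.range (y - 1)) = finrank F L * finrank L (moved y hy) := by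
  rw [← moved_restrict y hy]
  exact (Module.finrank_mul_finrank F L (moved y hy)).symm

theorem moved_ne_bot (y : V →ₗ[F] V) (hy : ∀ (a : L) v, y (a • v) = a • y v) (h1 : y ≠ 1) :
    moved y hy ≠ ⊥ := by
  intro h
  apply h1
  refine LinearMap.ext fun v => ?_
  have h2 : (linL y hy - 1) v ∈ moved y hy := ⟨v, rfl⟩
  rw [h, Submodule.mem_bot] at h2
  have h3 : y v - v = 0 := h2
  rw [sub_eq_zero] at h3
  rw [h3]
  rfl

theorem finrank_moved_pos [FiniteDimensional F L] [FiniteDimensional F V]
    (y : V →ₗ[F] V) (hy : ∀ (a : L) v, y (a • v) = a • y v) (h1 : y ≠ 1) :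
    0 < finrank L (moved y hy) := by
  haveI : FiniteDimensional L V := FiniteDimensional.right F L V
  have : Nontrivial (moved y hy) := Submodule.nontrivial_iff_ne_bot.2 (moved_ne_bot y hy h1)
  exact Module.finrank_pos

/-- The moved space has even `L`-dimension. -/
theorem even_moved [FiniteDimensional F L] [FiniteDimensional F V] {B : LinearMap.BilinForm F V}
    (hk : KForm L B) (y : V →ₗ[F] V) (hy : ∀ (a : L) v, y (a • v) = a • y v)
    (hiso : ∀ u v, B (y u) (y v) = B u v) {r : ℕ} (hr : (r : L) ≠ 0) (hyr : y ^ r = 1) :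
    Even (finrank L (moved y hy)) := by
  classical
  haveI : FiniteDimensional L V := FiniteDimensional.right F L V
  obtain ⟨τ, hτ⟩ := exists_tau (F := F) (L := L)
  set β := beta hk τ hτ with hβ
  have hyL : linL y hy ^ r = 1 := by
    refine LinearMap.ext fun v => ?_
    rw [linL_pow, hyr]
    rfl
  have hsup := Cfsg.Agent.Lib.Elusive.SpElt.sup_range_ker (linL y hy) hr hyL
  have hβiso : ∀ u v, β (y u) (y v) = β u v := beta_of_iso hk τ hτ hy hiso
  refine Cfsg.Agent.Lib.Elusive.SpIndex.even_finrank_of_nondeg (β.restrict (moved y hy)) ?_ ?_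
  · intro u
    exact beta_alt hk τ hτ u.1
  · rintro ⟨u, hu⟩ - hu0
    by_contra hcon
    push Not at hcon
    apply hu0
    apply Subtype.ext
    change u = 0
    apply beta_nd hk τ hτ
    intro v
    have hv : v ∈ LinearMap.range (linL y hy - 1) ⊔ LinearMap.ker (linL y hy - 1) := by
      rw [hsup]
      trivial
    obtain ⟨v₁, hv₁, v₂, hv₂, rfl⟩ := Submodule.mem_sup.1 hv
    have h1 : β u v₁ = 0 := hcon ⟨v₁, hv₁⟩ Submodule.mem_top
    have h2 : β u v₂ = 0 := by
      obtain ⟨t, rfl⟩ := hu
      have h3 : y v₂ = v₂ := by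
        have h4 : (linL y hy - 1) v₂ = 0 := hv₂
        have h5 : y v₂ - v₂ = 0 := h4
        exact sub_eq_zero.1 h5
      change β (y t - t) v₂ = 0
      rw [map_sub, LinearMap.sub_apply]
      nth_rw 1 [← h3]
      rw [hβiso, sub_self]
    rw [map_add, h1, h2, add_zero]

/-- The order bound. -/
theorem order_le_moved [FiniteDimensional F L] [FiniteDimensional F V] [Fintype L] {p : ℕ} [Fact p.Prime]
    [CharP L p] {Q : ℕ} (hQ : Fintype.card L = Q) {r : ℕ} [Fact r.Prime] (hrp : r ≠ p)
    (y : V →ₗ[F] V) (hy : ∀ (a : L) v, y (a • v) = a • y v) (hyr : y ^ r = 1) (h1 : y ≠ 1) :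
    orderOf ((Q : ℕ) : ZMod r) ≤ finrank L (moved y hy) := by
  classical
  haveI : FiniteDimensional L V := FiniteDimensional.right F L V
  have hinv : ∀ x ∈ moved y hy, linL y hy x ∈ moved y hy := by
    rintro _ ⟨t, rfl⟩
    refine ⟨y t, ?_⟩
    change y (y t) - y t = y (y t - t)
    rw [map_sub]
  let yR : moved y hy →ₗ[L] moved y hy := (linL y hy).restrict hinv
  have hyRpow : ∀ (n : ℕ) (u : moved y hy), ((yR ^ n) u : V) = (y ^ n) u.1 := by
    intro n u
    induction n generalizing u with
    | zero => simp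
    | succ n ih =>
      rw [pow_succ, pow_succ, Module.End.mul_apply, Module.End.mul_apply, ih]
      rfl
  have hyRr : yR ^ r = 1 := by
    refine LinearMap.ext fun u => Subtype.ext ?_
    rw [hyRpow, hyr]
    rfl
  have hrL : (r : L) ≠ 0 := by
    intro h
    have h2 := (CharP.cast_eq_zero_iff L p r).1 h
    exact hrp ((Nat.prime_dvd_prime_iff_eq (Fact.out) (Fact.out)).1 h2).symm
  have hyL : linL y hy ^ r = 1 := by
    refine LinearMap.ext fun v => ?_
    rw [linL_pow, hyr]
    rfl
  have hyR1 : yR ≠ 1 := by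
    intro h
    have hdis := Cfsg.Agent.Lib.Elusive.SpElt.disjoint_range_ker (linL y hy) hrL hyL
    apply moved_ne_bot y hy h1
    rw [eq_bot_iff]
    intro u hu
    have h2 : yR ⟨u, hu⟩ = ⟨u, hu⟩ := by rw [h]; rfl
    have h3 : y u = u := congrArg Subtype.val h2
    have h4 : u ∈ LinearMap.ker (linL y hy - 1) := by
      change y u - u = 0
      rw [h3, sub_self]
    exact (Submodule.disjoint_def.1 hdis) u hu h4
  haveI : CharP L p := inferInstance
  exact Cfsg.Agent.Lib.Elusive.SpElt.order_le_finrank (F := L) hQ hrp yR hyRr hyR1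

/-- Semilinear maps have a small fixed space. -/
theorem two_mul_ker_le [FiniteDimensional F V] (y : V →ₗ[F] V) {a a' : L} (hne : a ≠ a') (ha : a ≠ 0)
    (h : ∀ v, y (a • v) = a' • y v) :
    2 * finrank F (LinearMap.ker (y - 1)) ≤ finrank F V := by
  let aL : V →ₗ[F] V := (LinearMap.lsmul L V a).restrictScalars F
  have haL : ∀ v, aL v = a • v := fun v => rfl
  have hinj : Function.Injective aL := by
    intro u v huv
    rw [haL, haL] at huv
    exact smul_right_injective V ha huv
  set K₀ := LinearMap.ker (y - 1) with hK₀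
  have hfix : ∀ v ∈ K₀, y v = v := by
    intro v hv
    have h1 : y v - v = 0 := hv
    exact sub_eq_zero.1 h1
  have hdis : Disjoint K₀ (K₀.map aL) := by
    rw [Submodule.disjoint_def]
    rintro v hv ⟨w, hw, rfl⟩
    have h1 := hfix _ hv
    rw [haL, h, hfix w hw] at h1
    have h2 : (a' - a) • w = 0 := by
      rw [sub_smul, h1, sub_self]
    have h3 : w = 0 := by
      rcases smul_eq_zero.1 h2 with h4 | h4
      · exact absurd (sub_eq_zero.1 h4).symm hne
      · exact h4
    rw [h3, map_zero]
  have h1 := Submodule.finrank_add_finrank_le_of_disjoint hdis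
  have h2 : finrank F (K₀.map aL) = finrank F K₀ := (Submodule.equivMapOfInjective aL hinj K₀).finrank_eq.symm
  omega

end Cfsg.Agent.Lib.ElusK.Act
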