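import Mathlib

/-!
# The order arithmetic for `Sp_{2m}(q^k)` in `Sp_{2km}(q)`
-/

set_option autoImplicit false

namespace Cfsg.Agent.Lib.ElusK.Arith

/-- Splitting a product over `range (k * m)` by divisibility of the index by `k`. -/
theorem prod_split (P : ℕ → ℕ) (k m : ℕ) (hk : 0 < k) :
    ∏ i ∈ Finset.range (k * m), P (i + 1) =
      (∏ i ∈ Finset.range m, P (k * (i + 1))) *
        ∏ i ∈ (Finset.range (k * m)).filter (fun i => ¬ k ∣ (i + 1)), P (i + 1) := by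
  classical
  rw [← Finset.prod_filter_mul_prod_filter_not (Finset.range (k * m)) (fun i => k ∣ (i + 1))]
  congr 1
  symm
  refine Finset.prod_bij (fun i _ => k * (i + 1) - 1) ?_ ?_ ?_ ?_
  · intro i hi
    have hi' := Finset.mem_range.1 hi
    have h1 : k * (i + 1) ≤ k * m := Nat.mul_le_mul_left _ hi'
    have h2 : 0 < k * (i + 1) := by positivity
    rw [Finset.mem_filter, Finset.mem_range]
    refine ⟨by omega, ?_⟩
    rw [Nat.sub_add_cancel h2]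
    exact Dvd.intro _ rfl
  · intro i _ j _ hij
    have h1 : 0 < k * (i + 1) := by positivity
    have h2 : 0 < k * (j + 1) := by positivity
    have h3 : k * (i + 1) = k * (j + 1) := by
      have := hij
      omega
    have := Nat.eq_of_mul_eq_mul_left hk h3
    omega
  · intro b hb
    rw [Finset.mem_filter, Finset.mem_range] at hb
    obtain ⟨hb1, c, hc⟩ := hb
    have hc0 : 0 < c := by
      rcases Nat.eq_zero_or_pos c with h | h
      · rw [h, mul_zero] at hc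
        omega
      · exact h
    refine ⟨c - 1, Finset.mem_range.2 ?_, ?_⟩
    · have h1 : k * c < k * m + 1 := by omega
      have h2 : k * c ≤ k * m := by omega
      have h3 : c ≤ m := Nat.le_of_mul_le_mul_left h2 hk
      omega
    · rw [Nat.sub_add_cancel hc0, ← hc]
      omega
  · intro i _
    have h2 : 0 < k * (i + 1) := by positivity
    rw [Nat.sub_add_cancel h2]

/-- The factorization of the order of `Sp_{2km}(q)`. -/
theorem sp_factor (q k m : ℕ) (hk : 0 < k) :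
    q ^ ((k * m) ^ 2) * ∏ i ∈ Finset.range (k * m), (q ^ (2 * (i + 1)) - 1) =
      ((q ^ k) ^ (m ^ 2) * ∏ i ∈ Finset.range m, ((q ^ k) ^ (2 * (i + 1)) - 1)) *
        (q ^ (k * m ^ 2 * (k - 1)) *
          ∏ i ∈ (Finset.range (k * m)).filter (fun i => ¬ k ∣ (i + 1)), (q ^ (2 * (i + 1)) - 1)) := by
  rw [prod_split (fun j => q ^ (2 * j) - 1) k m hk]
  have h1 : ∏ i ∈ Finset.range m, ((q ^ k) ^ (2 * (i + 1)) - 1) =
      ∏ i ∈ Finset.range m, (q ^ (2 * (k * (i + 1))) - 1) := by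
    refine Finset.prod_congr rfl fun i _ => ?_
    rw [← pow_mul]
    congr 2
    ring
  rw [h1]
  have h2 : q ^ ((k * m) ^ 2) = (q ^ k) ^ (m ^ 2) * q ^ (k * m ^ 2 * (k - 1)) := by
    rw [← pow_mul, ← pow_add]
    congr 1
    obtain ⟨k', rfl⟩ : ∃ k', k = k' + 1 := ⟨k - 1, by omega⟩
    simp only [Nat.add_sub_cancel]
    ring
  rw [h2]
  ring

/-- If the index divides the complementary factor, a prime divisor divides some `q ^ (2 j) - 1`. -/
theorem exists_j {q k m r : ℕ} (hk : 0 < k) (hr : r.Prime) (hrq : ¬ r ∣ q) {idx c : ℕ}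
    (hc : 0 < c) (hmul : idx * c ∣
      q ^ ((k * m) ^ 2) * ∏ i ∈ Finset.range (k * m), (q ^ (2 * (i + 1)) - 1))
    (hcform : c = (q ^ k) ^ (m ^ 2) * ∏ i ∈ Finset.range m, ((q ^ k) ^ (2 * (i + 1)) - 1))
    (hdvd : r ∣ idx) :
    ∃ j, 0 < j ∧ j ≤ k * m ∧ ¬ k ∣ j ∧ r ∣ q ^ (2 * j) - 1 := by
  rw [sp_factor q k m hk, ← hcform, mul_comm idx] at hmul
  have h1 := Nat.dvd_of_mul_dvd_mul_left hc hmul
  have h2 := hdvd.trans h1
  rcases hr.prime.dvd_or_dvd h2 with h3 | h3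
  · exact absurd (hr.dvd_of_dvd_pow h3) hrq
  · obtain ⟨i, hi, hi2⟩ := (hr.prime.dvd_finsetProd_iff _).mp h3
    rw [Finset.mem_filter, Finset.mem_range] at hi
    exact ⟨i + 1, by omega, by omega, hi.2, hi2⟩

/-- From `j` to the order `e` of `q ^ 2` modulo `r`. -/
theorem exists_e {q k r j : ℕ} [hr : Fact r.Prime] (hrq : ¬ r ∣ q) (hj : 0 < j) (hkj : ¬ k ∣ j)
    (hdvd : r ∣ q ^ (2 * j) - 1) :
    0 < orderOf (((q ^ 2 : ℕ)) : ZMod r) ∧ orderOf (((q ^ 2 : ℕ)) : ZMod r) ≤ j ∧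
      ¬ k ∣ orderOf (((q ^ 2 : ℕ)) : ZMod r) ∧
      r ∣ q ^ (2 * orderOf (((q ^ 2 : ℕ)) : ZMod r)) - 1 := by
  have hq0 : 0 < q := Nat.pos_of_ne_zero fun h => hrq (h ▸ dvd_zero r)
  have h1 : (((q ^ 2 : ℕ)) : ZMod r) ^ j = 1 := by
    have h2 : 1 ≤ q ^ (2 * j) := Nat.one_le_pow _ _ hq0
    have h3 : ((q ^ (2 * j) - 1 : ℕ) : ZMod r) = 0 := (ZMod.natCast_eq_zero_iff _ _).2 hdvd
    rw [Nat.cast_sub h2] at h3
    push_cast at h3 ⊢
    rw [← pow_mul]
    linear_combination h3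
  have h2 : orderOf (((q ^ 2 : ℕ)) : ZMod r) ∣ j := orderOf_dvd_of_pow_eq_one h1
  have h3 : 0 < orderOf (((q ^ 2 : ℕ)) : ZMod r) := Nat.pos_of_dvd_of_pos h2 hj
  refine ⟨h3, Nat.le_of_dvd hj h2, fun h => hkj (h.trans h2), ?_⟩
  have h4 : 1 ≤ q ^ (2 * orderOf (((q ^ 2 : ℕ)) : ZMod r)) := Nat.one_le_pow _ _ hq0
  rw [← ZMod.natCast_eq_zero_iff, Nat.cast_sub h4]
  have h5 := pow_orderOf_eq_one (((q ^ 2 : ℕ)) : ZMod r)
  push_cast at h5 ⊢
  rw [pow_mul, h5]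
  simp

/-- The bound used when `r = k`: `2 e ≤ r - 1`. -/
theorem two_e_le {q r : ℕ} [hr : Fact r.Prime] (hr2 : r ≠ 2) (hrq : ¬ r ∣ q) :
    2 * orderOf (((q ^ 2 : ℕ)) : ZMod r) ≤ r - 1 := by
  have hodd : Odd r := hr.out.odd_of_ne_two hr2
  obtain ⟨t, ht⟩ := hodd
  have hq0 : ((q : ℕ) : ZMod r) ≠ 0 := fun h => hrq ((ZMod.natCast_eq_zero_iff _ _).1 h)
  have h1 := ZMod.pow_card_sub_one_eq_one hq0
  have h2 : (((q ^ 2 : ℕ)) : ZMod r) ^ t = 1 := by
    push_cast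
    rw [← pow_mul, ← h1]
    congr 1
    omega
  have h3 : orderOf (((q ^ 2 : ℕ)) : ZMod r) ∣ t := orderOf_dvd_of_pow_eq_one h2
  have ht0 : 0 < t := by
    rcases Nat.eq_zero_or_pos t with h | h
    · exfalso
      rw [h] at ht
      exact hr.out.one_lt.ne' (by omega)
    · exact h
  have h4 := Nat.le_of_dvd ht0 h3
  omega

/-- If `k ∤ e` with `k` prime, and `(q^k)^o = 1` mod `r`, then `e ∣ o` with `e` the order of `q²`. -/
theorem e_dvd_order {q k r : ℕ} [hr : Fact r.Prime] (hk : k.Prime)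
    (hke : ¬ k ∣ orderOf (((q ^ 2 : ℕ)) : ZMod r)) :
    orderOf (((q ^ 2 : ℕ)) : ZMod r) ∣ orderOf (((q ^ k : ℕ)) : ZMod r) := by
  have h1 : (((q ^ 2 : ℕ)) : ZMod r) ^ (k * orderOf (((q ^ k : ℕ)) : ZMod r)) = 1 := by
    have h2 := pow_orderOf_eq_one (((q ^ k : ℕ)) : ZMod r)
    push_cast at h2 ⊢
    rw [← pow_mul, show 2 * (k * orderOf ((q : ZMod r) ^ k)) = k * orderOf ((q : ZMod r) ^ k) * 2 by ring,
      pow_mul, pow_mul, h2, one_pow]
  have h3 := orderOf_dvd_of_pow_eq_one h1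
  have hcop : Nat.Coprime (orderOf (((q ^ 2 : ℕ)) : ZMod r)) k :=
    ((Nat.Prime.coprime_iff_not_dvd hk).2 hke).symm
  exact hcop.dvd_of_dvd_mul_left h3

end Cfsg.Agent.Lib.ElusK.Arith
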