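import Mathlib
import Cfsg.Agent.Lib.ElusK.Act
import Cfsg.Agent.Lib.ElusK.Arith
import Cfsg.Agent.Lib.Elusive.FieldSub
import Cfsg.Agent.Lib.Geo.Basic

/-!
# The field action attached to a field subalgebra of a matrix algebra
-/

set_option autoImplicit false

namespace Cfsg.Agent.Lib.ElusK.Model

open Module Matrix Cfsg Cfsg.Geo
open scoped MatrixGroups

variable {F L : Type*} [Field F] [Field L] [Algebra F L] {ι : Type} [Fintype ι] [DecidableEq ι]

/-- The action of the model field on vectors. -/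
@[reducible] def moduleOf (ρ : L →ₐ[F] Matrix ι ι F) : Module L (ι → F) where
  smul a v := ρ a *ᵥ v
  one_smul v := by
    change ρ 1 *ᵥ v = v
    rw [map_one, Matrix.one_mulVec]
  mul_smul a b v := by
    change ρ (a * b) *ᵥ v = ρ a *ᵥ (ρ b *ᵥ v)
    rw [map_mul, Matrix.mulVec_mulVec]
  smul_zero a := Matrix.mulVec_zero _
  smul_add a u v := Matrix.mulVec_add _ _ _
  add_smul a b v := by
    change ρ (a + b) *ᵥ v = ρ a *ᵥ v + ρ b *ᵥ v
    rw [map_add, Matrix.add_mulVec]
  zero_smul v := by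
    change ρ 0 *ᵥ v = 0
    rw [map_zero, Matrix.zero_mulVec]

theorem towerOf (ρ : L →ₐ[F] Matrix ι ι F) :
    letI := moduleOf ρ
    IsScalarTower F L (ι → F) := by
  letI := moduleOf ρ
  refine ⟨fun c a v => ?_⟩
  change ρ (c • a) *ᵥ v = c • (ρ a *ᵥ v)
  rw [map_smul, Matrix.smul_mulVec]

/-- Conjugation by an element of the normalizer. -/
theorem exists_conj {ρ : L →ₐ[F] Matrix ι ι F} {K : Subalgebra F (Matrix ι ι F)}
    (hK : ∀ m, m ∈ K ↔ ∃ a, ρ a = m) {y : GL ι F} (hy : y ∈ subalgebraNormalizer K) (a : L) :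
    ∃ a', ρ a' = (y : Matrix ι ι F) * ρ a * ((y⁻¹ : GL ι F) : Matrix ι ι F) :=
  (hK _).1 ((hy (ρ a)).1 ((hK _).2 ⟨a, rfl⟩))

/-- The `F`-endomorphism of the model field induced by `y`. -/
noncomputable def conjHom {ρ : L →ₐ[F] Matrix ι ι F} (hρ : Function.Injective ρ)
    {K : Subalgebra F (Matrix ι ι F)} (hK : ∀ m, m ∈ K ↔ ∃ a, ρ a = m) {y : GL ι F}
    (hy : y ∈ subalgebraNormalizer K) : L →ₐ[F] L where
  toFun a := Classical.choose (exists_conj hK hy a)
  map_one' := by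
    apply hρ
    rw [Classical.choose_spec (exists_conj hK hy (1 : L)), map_one, mul_one, ← Units.val_mul, mul_inv_cancel,
      Units.val_one]
  map_mul' a b := by
    apply hρ
    have h0 := Classical.choose_spec (exists_conj hK hy (a * b))
    have ha := Classical.choose_spec (exists_conj hK hy a)
    have hb := Classical.choose_spec (exists_conj hK hy b)
    rw [map_mul ρ (Classical.choose (exists_conj hK hy a)), h0, ha, hb, map_mul]
    have h1 : ((y⁻¹ : GL ι F) : Matrix ι ι F) * (y : Matrix ι ι F) = 1 := by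
      rw [← Units.val_mul, inv_mul_cancel, Units.val_one]
    calc (y : Matrix ι ι F) * (ρ a * ρ b) * ((y⁻¹ : GL ι F) : Matrix ι ι F)
        = (y : Matrix ι ι F) * ρ a * 1 * ρ b * ((y⁻¹ : GL ι F) : Matrix ι ι F) := by
          rw [mul_one]
          simp only [mul_assoc]
      _ = _ := by
          rw [← h1]
          simp only [mul_assoc]
  map_zero' := by
    apply hρ
    rw [Classical.choose_spec (exists_conj hK hy (0 : L)), map_zero, mul_zero, zero_mul]
  map_add' a b := by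
    apply hρ
    have h0 := Classical.choose_spec (exists_conj hK hy (a + b))
    have ha := Classical.choose_spec (exists_conj hK hy a)
    have hb := Classical.choose_spec (exists_conj hK hy b)
    rw [map_add ρ (Classical.choose (exists_conj hK hy a)), h0, ha, hb, map_add, mul_add, add_mul]
  commutes' c := by
    apply hρ
    change ρ (Classical.choose (exists_conj hK hy (algebraMap F L c))) = _
    rw [Classical.choose_spec (exists_conj hK hy (algebraMap F L c)), AlgHom.commutes, Algebra.algebraMap_eq_smul_one,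
      mul_smul_comm, smul_mul_assoc, mul_one, ← Units.val_mul, mul_inv_cancel, Units.val_one]

theorem conjHom_spec {ρ : L →ₐ[F] Matrix ι ι F} (hρ : Function.Injective ρ)
    {K : Subalgebra F (Matrix ι ι F)} (hK : ∀ m, m ∈ K ↔ ∃ a, ρ a = m) {y : GL ι F}
    (hy : y ∈ subalgebraNormalizer K) (a : L) :
    ρ (conjHom hρ hK hy a) = (y : Matrix ι ι F) * ρ a * ((y⁻¹ : GL ι F) : Matrix ι ι F) :=
  Classical.choose_spec (exists_conj hK hy a)

variable [FiniteDimensional F L]

/-- The automorphism of the model field induced by `y`. -/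
noncomputable def conjAut {ρ : L →ₐ[F] Matrix ι ι F} (hρ : Function.Injective ρ)
    {K : Subalgebra F (Matrix ι ι F)} (hK : ∀ m, m ∈ K ↔ ∃ a, ρ a = m) {y : GL ι F}
    (hy : y ∈ subalgebraNormalizer K) : L ≃ₐ[F] L :=
  AlgEquiv.ofBijective (conjHom hρ hK hy) (AlgHom.bijective _)

theorem conjAut_spec {ρ : L →ₐ[F] Matrix ι ι F} (hρ : Function.Injective ρ)
    {K : Subalgebra F (Matrix ι ι F)} (hK : ∀ m, m ∈ K ↔ ∃ a, ρ a = m) {y : GL ι F}
    (hy : y ∈ subalgebraNormalizer K) (a : L) :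
    ρ (conjAut hρ hK hy a) = (y : Matrix ι ι F) * ρ a * ((y⁻¹ : GL ι F) : Matrix ι ι F) :=
  conjHom_spec hρ hK hy a

theorem conjAut_pow {ρ : L →ₐ[F] Matrix ι ι F} (hρ : Function.Injective ρ)
    {K : Subalgebra F (Matrix ι ι F)} (hK : ∀ m, m ∈ K ↔ ∃ a, ρ a = m) {y : GL ι F}
    (hy : y ∈ subalgebraNormalizer K) (n : ℕ) (a : L) :
    ρ ((conjAut hρ hK hy ^ n) a) = ((y ^ n : GL ι F) : Matrix ι ι F) * ρ a * (((y ^ n)⁻¹ : GL ι F) : Matrix ι ι F) := by
  induction n generalizing a with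
  | zero =>
    simp
  | succ n ih =>
    rw [pow_succ', AlgEquiv.mul_apply, conjAut_spec, ih, pow_succ']
    simp only [_root_.mul_inv_rev, Units.val_mul, mul_assoc]

/-- A non-commuting element of the normalizer with `y ^ r = 1` forces `r` to divide the degree. -/
theorem dvd_of_not_comm [Finite F] {ρ : L →ₐ[F] Matrix ι ι F} (hρ : Function.Injective ρ)
    {K : Subalgebra F (Matrix ι ι F)} (hK : ∀ m, m ∈ K ↔ ∃ a, ρ a = m) {y : GL ι F}
    (hy : y ∈ subalgebraNormalizer K) {r : ℕ} [hr : Fact r.Prime] (hyr : y ^ r = 1)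
    {a : L} (hne : (y : Matrix ι ι F) * ρ a * ((y⁻¹ : GL ι F) : Matrix ι ι F) ≠ ρ a) :
    r ∣ finrank F L := by
  have h1 : conjAut hρ hK hy ^ r = 1 := by
    refine AlgEquiv.ext fun b => ?_
    apply hρ
    rw [conjAut_pow, hyr]
    simp
  have h2 : conjAut hρ hK hy ≠ 1 := by
    intro h
    apply hne
    rw [← conjAut_spec hρ hK hy, h]
    rfl
  have h3 : orderOf (conjAut hρ hK hy) = r := orderOf_eq_prime h1 h2
  haveI : Finite L := Module.finite_of_finite F
  have h4 := orderOf_dvd_natCard (conjAut hρ hK hy)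
  rw [h3, IsGalois.card_aut_eq_finrank] at h4
  exact h4

/-- The semilinear data of a non-commuting element. -/
theorem semilinear_data {ρ : L →ₐ[F] Matrix ι ι F} (hρ : Function.Injective ρ)
    {K : Subalgebra F (Matrix ι ι F)} (hK : ∀ m, m ∈ K ↔ ∃ a, ρ a = m) {y : GL ι F}
    (hy : y ∈ subalgebraNormalizer K) {a : L}
    (hne : (y : Matrix ι ι F) * ρ a * ((y⁻¹ : GL ι F) : Matrix ι ι F) ≠ ρ a) :
    ∃ a', a ≠ a' ∧ a ≠ 0 ∧ ∀ v : ι → F, (y : Matrix ι ι F) *ᵥ (ρ a *ᵥ v) = ρ a' *ᵥ ((y : Matrix ι ι F) *ᵥ v) := by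
  refine ⟨conjAut hρ hK hy a, ?_, ?_, fun v => ?_⟩
  · intro h
    apply hne
    rw [← conjAut_spec hρ hK hy, ← h]
  · rintro rfl
    apply hne
    simp
  · rw [conjAut_spec, Matrix.mulVec_mulVec, Matrix.mulVec_mulVec]
    congr 1
    rw [mul_assoc ((y : Matrix ι ι F) * ρ a), ← Units.val_mul, inv_mul_cancel, Units.val_one, mul_one]

/-- An element conjugating the algebra into itself both ways is in the normalizer. -/
theorem mem_normalizer_of_conj {K : Subalgebra F (Matrix ι ι F)} {y : GL ι F}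
    (h1 : ∀ k ∈ K, (y : Matrix ι ι F) * k * ((y⁻¹ : GL ι F) : Matrix ι ι F) ∈ K)
    (h2 : ∀ k ∈ K, ((y⁻¹ : GL ι F) : Matrix ι ι F) * k * (y : Matrix ι ι F) ∈ K) :
    y ∈ subalgebraNormalizer K := by
  intro k
  refine ⟨h1 k, fun h => ?_⟩
  have h3 := h2 _ h
  have h4 : ((y⁻¹ : GL ι F) : Matrix ι ι F) * ((y : Matrix ι ι F) * k * ((y⁻¹ : GL ι F) : Matrix ι ι F)) * (y : Matrix ι ι F) = k := by
    have e1 : ((y⁻¹ : GL ι F) : Matrix ι ι F) * (y : Matrix ι ι F) = 1 := by
      rw [← Units.val_mul, inv_mul_cancel, Units.val_one]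
    calc _ = (((y⁻¹ : GL ι F) : Matrix ι ι F) * (y : Matrix ι ι F)) * k * (((y⁻¹ : GL ι F) : Matrix ι ι F) * (y : Matrix ι ι F)) := by
          simp only [mul_assoc]
      _ = k := by rw [e1, one_mul, mul_one]
  rwa [h4] at h3

/-- An element commuting with the model field is in the normalizer. -/
theorem mem_normalizer_of_comm {ρ : L →ₐ[F] Matrix ι ι F}
    {K : Subalgebra F (Matrix ι ι F)} (hK : ∀ m, m ∈ K ↔ ∃ a, ρ a = m) {y : GL ι F}
    (h : ∀ a, (y : Matrix ι ι F) * ρ a = ρ a * (y : Matrix ι ι F)) :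
    y ∈ subalgebraNormalizer K := by
  have e1 : ((y⁻¹ : GL ι F) : Matrix ι ι F) * (y : Matrix ι ι F) = 1 := by
    rw [← Units.val_mul, inv_mul_cancel, Units.val_one]
  have e2 : (y : Matrix ι ι F) * ((y⁻¹ : GL ι F) : Matrix ι ι F) = 1 := by
    rw [← Units.val_mul, mul_inv_cancel, Units.val_one]
  apply mem_normalizer_of_conj
  · intro k hk
    obtain ⟨a, rfl⟩ := (hK k).1 hk
    rw [h, mul_assoc, e2, mul_one]
    exact (hK _).2 ⟨a, rfl⟩
  · intro k hk
    obtain ⟨a, rfl⟩ := (hK k).1 hk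
    rw [mul_assoc, ← h, ← mul_assoc, e1, one_mul]
    exact (hK _).2 ⟨a, rfl⟩

end Cfsg.Agent.Lib.ElusK.Model
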