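import Mathlib
import Cfsg.Agent.Lib.ElusK.Model
import Cfsg.Agent.Lib.Classical.SympForm
import Cfsg.Agent.Lib.Classical.SympCount
import Cfsg.Agent.Lib.CmaxS.Simple

/-!
# The subgroup `Sp_{2m}(q^k)` of the normalizer, and the divisibility of the index
-/

set_option autoImplicit false

namespace Cfsg.Agent.Lib.ElusK.Order

open Module Matrix Cfsg Cfsg.Geo Cfsg.Agent.Lib.ElusK.Beta Cfsg.Agent.Lib.ElusK.Model
  Cfsg.Agent.Lib.Classical.Alt Cfsg.Agent.Lib.Classical.SympForm Cfsg.Agent.Lib.Elusive.Sympl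
open scoped MatrixGroups

variable {F : Type*} [Field F] {ι : Type} [Fintype ι] [DecidableEq ι]

/-- The invertible matrix of a linear equivalence. -/
noncomputable def toGL (h : (ι → F) ≃ₗ[F] (ι → F)) : GL ι F where
  val := LinearMap.toMatrix' (h : (ι → F) →ₗ[F] (ι → F))
  inv := LinearMap.toMatrix' (h.symm : (ι → F) →ₗ[F] (ι → F))
  val_inv := by
    rw [← LinearMap.toMatrix'_comp, LinearEquiv.comp_coe, LinearEquiv.symm_trans_self]
    exact LinearMap.toMatrix'_id
  inv_val := by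
    rw [← LinearMap.toMatrix'_comp, LinearEquiv.comp_coe, LinearEquiv.self_trans_symm]
    exact LinearMap.toMatrix'_id

@[simp] theorem toGL_mulVec (h : (ι → F) ≃ₗ[F] (ι → F)) (v : ι → F) :
    (toGL h : Matrix ι ι F) *ᵥ v = h v :=
  LinearMap.toMatrix'_mulVec _ v

@[simp] theorem toGL_inv_mulVec (h : (ι → F) ≃ₗ[F] (ι → F)) (v : ι → F) :
    (((toGL h)⁻¹ : GL ι F) : Matrix ι ι F) *ᵥ v = h.symm v :=
  LinearMap.toMatrix'_mulVec _ v

/-- Extensionality of matrices on vectors. -/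
theorem mat_ext {M M' : Matrix ι ι F} (h : ∀ v : ι → F, M *ᵥ v = M' *ᵥ v) : M = M' :=
  Matrix.toLin'.injective (LinearMap.ext h)

variable {L : Type*} [Field L] [Algebra F L] [FiniteDimensional F L] {d : ℕ}
  [Module L (Fin d ⊕ Fin d → F)] [IsScalarTower F L (Fin d ⊕ Fin d → F)]

/-- The group of `L`-linear isometries maps to the normalizer. -/
theorem card_dvd (ρ : L →ₐ[F] Matrix (Fin d ⊕ Fin d) (Fin d ⊕ Fin d) F)
    (hsm : ∀ (a : L) (v : Fin d ⊕ Fin d → F), a • v = ρ a *ᵥ v)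
    {K : Subalgebra F (Matrix (Fin d ⊕ Fin d) (Fin d ⊕ Fin d) F)} (hK : ∀ m, m ∈ K ↔ ∃ a, ρ a = m)
    (hk : KForm L (sympBilin d F)) (τ : L →ₗ[F] F) (hτ : τ 1 ≠ 0) :
    Nat.card (isomGroup (beta hk τ hτ)) ∣ Nat.card ((subalgebraNormalizer K).subgroupOf (spGL d F)) := by
  classical
  have hsp : ∀ g : isomGroup (beta hk τ hτ), toGL (g.1.restrictScalars F) ∈ spGL d F := by
    intro g
    rw [Cfsg.Agent.Lib.Geo.Basic.mem_spGL_iff]
    intro u v
    rw [toGL_mulVec, toGL_mulVec]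
    have h := iso_of_beta hk τ hτ (g := g.1) (fun u v => g.2 u v) u v
    exact h
  have hN : ∀ g : isomGroup (beta hk τ hτ), toGL (g.1.restrictScalars F) ∈ subalgebraNormalizer K := by
    intro g
    apply mem_normalizer_of_comm hK
    intro a
    apply Order.mat_ext
    intro v
    rw [← Matrix.mulVec_mulVec, ← Matrix.mulVec_mulVec, toGL_mulVec, toGL_mulVec, ← hsm, ← hsm]
    exact g.1.map_smul a v
  let f : isomGroup (beta hk τ hτ) →* ((subalgebraNormalizer K).subgroupOf (spGL d F)) :=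
    { toFun := fun g => ⟨⟨toGL (g.1.restrictScalars F), hsp g⟩, hN g⟩
      map_one' := by
        apply Subtype.ext
        apply Subtype.ext
        apply Units.ext
        apply Order.mat_ext
        intro v
        rw [toGL_mulVec]
        change _ = (1 : Matrix _ _ F) *ᵥ v
        rw [Matrix.one_mulVec]
        rfl
      map_mul' := fun g g' => by
        apply Subtype.ext
        apply Subtype.ext
        apply Units.ext
        apply Order.mat_ext
        intro v
        rw [toGL_mulVec]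
        change _ = ((toGL (g.1.restrictScalars F) : Matrix (Fin d ⊕ Fin d) (Fin d ⊕ Fin d) F) * (toGL (g'.1.restrictScalars F) : Matrix (Fin d ⊕ Fin d) (Fin d ⊕ Fin d) F)) *ᵥ v
        rw [← Matrix.mulVec_mulVec, toGL_mulVec, toGL_mulVec]
        rfl }
  have hf : Function.Injective f := by
    intro g g' h
    apply Subtype.ext
    refine LinearEquiv.ext fun v => ?_
    have h1 : (toGL (g.1.restrictScalars F) : Matrix (Fin d ⊕ Fin d) (Fin d ⊕ Fin d) F) = toGL (g'.1.restrictScalars F) :=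
      congrArg (fun x : ((subalgebraNormalizer K).subgroupOf (spGL d F)) => ((x.1.1 : GL (Fin d ⊕ Fin d) F) : Matrix (Fin d ⊕ Fin d) (Fin d ⊕ Fin d) F)) h
    have h2 := congrArg (fun M => M *ᵥ v) h1
    simp only [toGL_mulVec] at h2
    exact h2
  exact Subgroup.card_dvd_of_injective f hf

/-- The degree divides `d`, with quotient half the `L`-dimension. -/
theorem exists_m (hk : KForm L (sympBilin d F)) :
    ∃ m, d = finrank F L * m ∧ finrank L (Fin d ⊕ Fin d → F) = 2 * m := by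
  haveI : FiniteDimensional L (Fin d ⊕ Fin d → F) := FiniteDimensional.right F L _
  obtain ⟨τ, hτ⟩ := exists_tau (F := F) (L := L)
  have heven : Even (finrank L (Fin d ⊕ Fin d → F)) := by
    refine Cfsg.Agent.Lib.Elusive.SpIndex.even_finrank_of_nondeg (beta hk τ hτ) (beta_alt hk τ hτ) ?_
    intro u _ hu
    by_contra hcon
    push Not at hcon
    exact hu (beta_nd hk τ hτ fun v => hcon v Submodule.mem_top)
  obtain ⟨m, hm⟩ := heven
  have h1 := Module.finrank_mul_finrank F L (Fin d ⊕ Fin d → F)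
  have h2 : finrank F (Fin d ⊕ Fin d → F) = 2 * d := by
    rw [Module.finrank_fintype_fun_eq_card, Fintype.card_sum, Fintype.card_fin]
    ring
  refine ⟨m, ?_, by omega⟩
  rw [h2, hm] at h1
  nlinarith

/-- The arithmetic consequence of `r` dividing the index. -/
theorem exists_order [Finite F] (ρ : L →ₐ[F] Matrix (Fin d ⊕ Fin d) (Fin d ⊕ Fin d) F)
    (hsm : ∀ (a : L) (v : Fin d ⊕ Fin d → F), a • v = ρ a *ᵥ v)
    {K : Subalgebra F (Matrix (Fin d ⊕ Fin d) (Fin d ⊕ Fin d) F)} (hK : ∀ m, m ∈ K ↔ ∃ a, ρ a = m)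
    (hk : KForm L (sympBilin d F)) {q : ℕ} (hq : Nat.card F = q) {r : ℕ} [hr : Fact r.Prime]
    (hrq : ¬ r ∣ q) (hΩ : r ∣ (subalgebraNormalizer K).relIndex (spGL d F)) (hk0 : 0 < finrank F L) :
    0 < orderOf (((q ^ 2 : ℕ)) : ZMod r) ∧ orderOf (((q ^ 2 : ℕ)) : ZMod r) ≤ d ∧
      ¬ finrank F L ∣ orderOf (((q ^ 2 : ℕ)) : ZMod r) ∧
      r ∣ q ^ (2 * orderOf (((q ^ 2 : ℕ)) : ZMod r)) - 1 := by
  classical
  haveI : FiniteDimensional L (Fin d ⊕ Fin d → F) := FiniteDimensional.right F L _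
  haveI : Finite L := Module.finite_of_finite F
  obtain ⟨τ, hτ⟩ := exists_tau (F := F) (L := L)
  obtain ⟨m, hdm, hfm⟩ := exists_m hk
  set k := finrank F L with hk'
  have hQ : Nat.card L = q ^ k := by
    rw [Module.natCard_eq_pow_finrank (K := F) (V := L), hq]
  have hnd : NondegOn (beta hk τ hτ) ⊤ := by
    intro u _ hu
    by_contra hcon
    push Not at hcon
    exact hu (beta_nd hk τ hτ fun v => hcon v Submodule.mem_top)
  have hc := Cfsg.Agent.Lib.Elusive.SpElt.card_isomGroup (beta hk τ hτ) (beta_alt hk τ hτ) hnd hQ m hfm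
  have hdv := card_dvd ρ hsm hK hk τ hτ
  have hS : Nat.card (spGL d F) = q ^ (d ^ 2) * ∏ i ∈ Finset.range d, (q ^ (2 * (i + 1)) - 1) := by
    rw [Nat.card_congr (Cfsg.Agent.Lib.CmaxS.Simple.eSp (m := d) (F := F)).toEquiv]
    exact Cfsg.Agent.Lib.Classical.SympCount.card_symplecticGroup hq d
  have hidx := Subgroup.index_mul_card ((subalgebraNormalizer K).subgroupOf (spGL d F))
  have hmul : (subalgebraNormalizer K).relIndex (spGL d F) * Nat.card (isomGroup (beta hk τ hτ)) ∣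
      Nat.card (spGL d F) := by
    rw [← hidx]
    exact Nat.mul_dvd_mul_left _ hdv
  have hS' : q ^ (d ^ 2) * ∏ i ∈ Finset.range d, (q ^ (2 * (i + 1)) - 1) =
      q ^ ((k * m) ^ 2) * ∏ i ∈ Finset.range (k * m), (q ^ (2 * (i + 1)) - 1) := by
    rw [← hdm]
  rw [hS, hS'] at hmul
  haveI : Finite ((Fin d ⊕ Fin d → F) ≃ₗ[L] (Fin d ⊕ Fin d → F)) :=
    Finite.of_injective (fun g => (g : (Fin d ⊕ Fin d → F) → (Fin d ⊕ Fin d → F)))
      (fun a b h => LinearEquiv.ext (congrFun h))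
  have hc0 : 0 < Nat.card (isomGroup (beta hk τ hτ)) := Nat.card_pos
  obtain ⟨j, hj0, hjd, hjk, hjr⟩ := Arith.exists_j hk0 hr.out hrq hc0 hmul hc hΩ
  obtain ⟨h1, h2, h3, h4⟩ := Arith.exists_e hrq hj0 hjk hjr
  refine ⟨h1, ?_, h3, h4⟩
  have := h2.trans hjd
  omega

end Cfsg.Agent.Lib.ElusK.Order
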