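import Mathlib
import Cfsg.Agent.Lib.ElusK.Order
import Cfsg.Agent.Lib.Elusive.OmegaMem

/-!
# Elements of small support do not normalize the field
-/

set_option autoImplicit false

namespace Cfsg.Agent.Lib.ElusK.Forward

open Module Matrix Cfsg Cfsg.Geo Cfsg.Agent.Lib.ElusK.Beta Cfsg.Agent.Lib.ElusK.Model
  Cfsg.Agent.Lib.ElusK.Order Cfsg.Agent.Lib.ElusK.Act
  Cfsg.Agent.Lib.Classical.SympForm Cfsg.Agent.Lib.Elusive.Sympl
open scoped MatrixGroups

variable {F : Type*} [Field F] {d : ℕ}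

/-- The rank of a conjugate. -/
theorem rank_conj {ι : Type} [Fintype ι] [DecidableEq ι] (g x : GL ι F) :
    ((((g⁻¹ * x * g : GL ι F)) : Matrix ι ι F) - 1).rank = ((x : Matrix ι ι F) - 1).rank := by
  have e1 : ((g⁻¹ : GL ι F) : Matrix ι ι F) * (g : Matrix ι ι F) = 1 := by
    rw [← Units.val_mul, inv_mul_cancel, Units.val_one]
  have h1 : ((((g⁻¹ * x * g : GL ι F)) : Matrix ι ι F) - 1) =
      ((g⁻¹ : GL ι F) : Matrix ι ι F) * ((x : Matrix ι ι F) - 1) * (g : Matrix ι ι F) := by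
    rw [mul_sub, sub_mul, mul_one, e1, Units.val_mul, Units.val_mul]
  rw [h1, Matrix.rank_mul_eq_left_of_isUnit_det _ _ ((Matrix.isUnit_iff_isUnit_det _).1 g.isUnit),
    Matrix.rank_mul_eq_right_of_isUnit_det _ _ ((Matrix.isUnit_iff_isUnit_det _).1 (g⁻¹).isUnit)]

variable {L : Type*} [Field L] [Algebra F L] [FiniteDimensional F L]
  [Module L (Fin d ⊕ Fin d → F)] [IsScalarTower F L (Fin d ⊕ Fin d → F)]

/-- The dichotomy for a conjugate of a small element in the normalizer. -/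
theorem core [Fintype F] [Fintype L] {p : ℕ} [Fact p.Prime] [CharP F p] [CharP L p] {Q : ℕ}
    (hQ : Fintype.card L = Q) (ρ : L →ₐ[F] Matrix (Fin d ⊕ Fin d) (Fin d ⊕ Fin d) F) (hρ : Function.Injective ρ)
    (hsm : ∀ (a : L) (v : Fin d ⊕ Fin d → F), a • v = ρ a *ᵥ v)
    {K : Subalgebra F (Matrix (Fin d ⊕ Fin d) (Fin d ⊕ Fin d) F)} (hK : ∀ m, m ∈ K ↔ ∃ a, ρ a = m)
    (hk : KForm L (sympBilin d F)) {r : ℕ} [hr : Fact r.Prime]
    (x₀ : (Fin d ⊕ Fin d → F) →ₗ[F] (Fin d ⊕ Fin d → F)) (hiso : ∀ u v, sympForm d F (x₀ u) (x₀ v) = sympForm d F u v)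
    (hx₀r : x₀ ^ r = 1) (hx₀1 : x₀ ≠ 1) {t : ℕ} (ht : finrank F (LinearMap.range (x₀ - 1)) ≤ t)
    (hns : ∀ z : F, ∃ v, x₀ v ≠ z • v)
    (P : ∀ x ∈ spGL d F, (∃ z : F, ((x ^ r : GL (Fin d ⊕ Fin d) F) : Matrix (Fin d ⊕ Fin d) (Fin d ⊕ Fin d) F) = z • (1 : Matrix (Fin d ⊕ Fin d) (Fin d ⊕ Fin d) F)) →
      (∀ z : F, (x : Matrix (Fin d ⊕ Fin d) (Fin d ⊕ Fin d) F) ≠ z • (1 : Matrix (Fin d ⊕ Fin d) (Fin d ⊕ Fin d) F)) →
      ∃ g ∈ spGL d F, g⁻¹ * x * g ∈ subalgebraNormalizer K) :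
    (∃ n, finrank F L * n ≤ t ∧ 0 < n ∧ (r ≠ p → Even n ∧ orderOf ((Q : ℕ) : ZMod r) ≤ n)) ∨
      (2 * (2 * d - t) ≤ 2 * d ∧ r ∣ finrank F L) := by
  classical
  have hrpos := hr.out.pos
  let X₀ : Matrix (Fin d ⊕ Fin d) (Fin d ⊕ Fin d) F := LinearMap.toMatrix' x₀
  have hX₀v : ∀ v, X₀ *ᵥ v = x₀ v := fun v => LinearMap.toMatrix'_mulVec x₀ v
  have hX₀r : X₀ ^ r = 1 := by
    have h1 : X₀ = LinearMap.toMatrixAlgEquiv' x₀ := rfl
    rw [h1, ← map_pow, hx₀r, map_one]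
  let x : GL (Fin d ⊕ Fin d) F := Cfsg.Agent.Lib.Elusive.OmegaMem.glOfPow X₀ r hrpos hX₀r
  have hxc : (x : Matrix (Fin d ⊕ Fin d) (Fin d ⊕ Fin d) F) = X₀ := rfl
  have hxr : x ^ r = 1 := Cfsg.Agent.Lib.Elusive.OmegaMem.glOfPow_pow X₀ r hrpos hX₀r
  have hxsp : x ∈ spGL d F := by
    rw [Cfsg.Agent.Lib.Geo.Basic.mem_spGL_iff]
    intro u v
    rw [hxc, hX₀v, hX₀v]
    exact hiso u v
  obtain ⟨g, hg, hy⟩ := P x hxsp ⟨1, by rw [one_smul, hxr, Units.val_one]⟩ (by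
    intro z hz
    obtain ⟨v, hv⟩ := hns z
    apply hv
    rw [← hX₀v, ← hxc, hz, Matrix.smul_mulVec, Matrix.one_mulVec])
  set y : GL (Fin d ⊕ Fin d) F := g⁻¹ * x * g with hydef
  let Y : (Fin d ⊕ Fin d → F) →ₗ[F] (Fin d ⊕ Fin d → F) := Matrix.toLin' (y : Matrix (Fin d ⊕ Fin d) (Fin d ⊕ Fin d) F)
  have hYv : ∀ v, Y v = (y : Matrix (Fin d ⊕ Fin d) (Fin d ⊕ Fin d) F) *ᵥ v := fun v => Matrix.toLin'_apply _ _
  have hyr : y ^ r = 1 := by
    rw [hydef, show g⁻¹ * x * g = g⁻¹ * x * g⁻¹⁻¹ by rw [inv_inv], conj_pow, hxr]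
    simp
  have hYr : Y ^ r = 1 := by
    have h1 : Y = Matrix.toLinAlgEquiv' (y : Matrix (Fin d ⊕ Fin d) (Fin d ⊕ Fin d) F) := rfl
    rw [h1, ← map_pow, ← Units.val_pow_eq_pow_val, hyr, Units.val_one, map_one]
  have hysp : y ∈ spGL d F :=
    (spGL d F).mul_mem ((spGL d F).mul_mem ((spGL d F).inv_mem hg) hxsp) hg
  have hYiso : ∀ u v, sympBilin d F (Y u) (Y v) = sympBilin d F u v := by
    intro u v
    rw [hYv, hYv]
    exact (Cfsg.Agent.Lib.Geo.Basic.mem_spGL_iff d y).1 hysp u v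
  have hY1 : Y ≠ 1 := by
    intro h
    have hy1 : y = 1 := by
      apply Units.ext
      apply Order.mat_ext
      intro v
      rw [← hYv, h, Units.val_one, Matrix.one_mulVec]
      rfl
    apply hx₀1
    have hx1 : x = 1 := by
      rw [hydef] at hy1
      have h2 : x = g * (g⁻¹ * x * g) * g⁻¹ := by group
      rw [h2, hy1]
      group
    refine LinearMap.ext fun v => ?_
    rw [← hX₀v, ← hxc, hx1, Units.val_one, Matrix.one_mulVec]
    rfl
  have hYrange : finrank F (LinearMap.range (Y - 1)) ≤ t := by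
    have h1 : finrank F (LinearMap.range (Y - 1)) = ((y : Matrix (Fin d ⊕ Fin d) (Fin d ⊕ Fin d) F) - 1).rank := by
      have : Y - 1 = ((y : Matrix (Fin d ⊕ Fin d) (Fin d ⊕ Fin d) F) - 1).mulVecLin := by
        refine LinearMap.ext fun v => ?_
        rw [LinearMap.sub_apply, hYv, Matrix.mulVecLin_apply, Matrix.sub_mulVec, Matrix.one_mulVec]
        rfl
      rw [this]
      rfl
    have h2 : finrank F (LinearMap.range (x₀ - 1)) = ((x : Matrix (Fin d ⊕ Fin d) (Fin d ⊕ Fin d) F) - 1).rank := by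
      have : x₀ - 1 = ((x : Matrix (Fin d ⊕ Fin d) (Fin d ⊕ Fin d) F) - 1).mulVecLin := by
        refine LinearMap.ext fun v => ?_
        rw [LinearMap.sub_apply, Matrix.mulVecLin_apply, Matrix.sub_mulVec, Matrix.one_mulVec, hxc, hX₀v]
        rfl
      rw [this]
      rfl
    rw [h1, hydef, rank_conj, ← h2]
    exact ht
  have e1 : ((y⁻¹ : GL (Fin d ⊕ Fin d) F) : Matrix (Fin d ⊕ Fin d) (Fin d ⊕ Fin d) F) * (y : Matrix (Fin d ⊕ Fin d) (Fin d ⊕ Fin d) F) = 1 := by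
    rw [← Units.val_mul, inv_mul_cancel, Units.val_one]
  by_cases hcomm : ∀ a : L, (y : Matrix (Fin d ⊕ Fin d) (Fin d ⊕ Fin d) F) * ρ a * ((y⁻¹ : GL (Fin d ⊕ Fin d) F) : Matrix (Fin d ⊕ Fin d) (Fin d ⊕ Fin d) F) = ρ a
  · left
    have hcm : ∀ a : L, (y : Matrix (Fin d ⊕ Fin d) (Fin d ⊕ Fin d) F) * ρ a = ρ a * (y : Matrix (Fin d ⊕ Fin d) (Fin d ⊕ Fin d) F) := by
      intro a
      nth_rw 2 [← hcomm a]
      rw [mul_assoc ((y : Matrix (Fin d ⊕ Fin d) (Fin d ⊕ Fin d) F) * ρ a), e1, mul_one]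
    have hYL : ∀ (a : L) v, Y (a • v) = a • Y v := by
      intro a v
      rw [hsm, hsm, hYv, hYv, Matrix.mulVec_mulVec, Matrix.mulVec_mulVec, hcm]
    have hrank := finrank_moved (F := F) (L := L) Y hYL
    have hpos := finrank_moved_pos (F := F) (L := L) Y hYL hY1
    refine ⟨finrank L (moved Y hYL), by rw [← hrank]; exact hYrange, hpos, fun hrp => ?_⟩
    have hrL : (r : L) ≠ 0 := by
      intro h
      have h2 := (CharP.cast_eq_zero_iff L p r).1 h
      exact hrp ((Nat.prime_dvd_prime_iff_eq (Fact.out) hr.out).1 h2).symm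
    exact ⟨even_moved hk Y hYL hYiso hrL hYr, order_le_moved hQ hrp Y hYL hYr hY1⟩
  · right
    push Not at hcomm
    obtain ⟨a, ha⟩ := hcomm
    obtain ⟨a', hne, ha0, hsemi⟩ := semilinear_data hρ hK hy ha
    have hdvd := dvd_of_not_comm hρ hK hy hyr ha
    refine ⟨?_, hdvd⟩
    have hker := two_mul_ker_le Y hne ha0 (fun v => by
      rw [hsm, hsm, hYv, hYv, hsemi])
    have hV : finrank F (Fin d ⊕ Fin d → F) = 2 * d := by
      rw [Module.finrank_fintype_fun_eq_card, Fintype.card_sum, Fintype.card_fin]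
      ring
    have hrn := LinearMap.finrank_range_add_finrank_ker (Y - 1)
    omega

/-- Isometries of prime order are scalar only in trivial cases. -/
theorem not_scalar [Fintype F] (hd : 0 < d) {x₀ : (Fin d ⊕ Fin d → F) →ₗ[F] (Fin d ⊕ Fin d → F)}
    (hiso : ∀ u v, sympForm d F (x₀ u) (x₀ v) = sympForm d F u v) {r : ℕ} [hr : Fact r.Prime]
    (hx₀r : x₀ ^ r = 1) (hx₀1 : x₀ ≠ 1) (hcase : r ≠ 2 ∨ finrank F (LinearMap.range (x₀ - 1)) < 2 * d) (z : F) :
    ∃ v, x₀ v ≠ z • v := by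
  by_contra hcon
  push Not at hcon
  let i0 : Fin d := ⟨0, hd⟩
  have hz2 : z ^ 2 = 1 := by
    have h1 := hiso (Pi.single (Sum.inl i0) 1) (Pi.single (Sum.inr i0) 1)
    rw [hcon, hcon] at h1
    have h2 : sympForm d F (Pi.single (Sum.inl i0) 1) (Pi.single (Sum.inr i0) 1) = -1 := by
      rw [Cfsg.Agent.Lib.Classical.SympCount.sympForm_single_single]
      simp [Matrix.J]
    have h3 : sympForm d F (z • (Pi.single (Sum.inl i0) 1)) (z • (Pi.single (Sum.inr i0) 1)) =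
        z * z * sympForm d F (Pi.single (Sum.inl i0) 1) (Pi.single (Sum.inr i0) 1) := by
      change sympBilin d F _ _ = z * z * sympBilin d F _ _
      simp only [map_smul, LinearMap.smul_apply, smul_eq_mul]
      ring
    rw [h3, h2] at h1
    linear_combination -h1
  have hz1 : z ≠ 1 := by
    rintro rfl
    apply hx₀1
    refine LinearMap.ext fun v => ?_
    rw [hcon, one_smul]
    rfl
  have hpow : ∀ (k : ℕ) v, (x₀ ^ k) v = z ^ k • v := by
    intro k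
    induction k with
    | zero => intro v; simp
    | succ k ih =>
      intro v
      rw [pow_succ, Module.End.mul_apply, ih, hcon, smul_smul, pow_succ]
  rcases hcase with h2 | hlt
  · have hzr : z ^ r = 1 := by
      have h1 := hpow r (Pi.single (Sum.inl i0) 1)
      rw [hx₀r] at h1
      have h2 := congrFun h1 (Sum.inl i0)
      simp at h2
      exact h2.symm
    obtain ⟨k, hk⟩ := hr.out.odd_of_ne_two h2
    rw [hk, pow_succ, pow_mul, hz2, one_pow, one_mul] at hzr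
    exact hz1 hzr
  · have htop : LinearMap.range (x₀ - 1) = ⊤ := by
      rw [eq_top_iff]
      intro v _
      have hne : z - 1 ≠ 0 := sub_ne_zero.2 hz1
      refine ⟨(z - 1)⁻¹ • v, ?_⟩
      rw [LinearMap.sub_apply, hcon, Module.End.one_apply,
        show z • (z - 1)⁻¹ • v - (z - 1)⁻¹ • v = (z - 1) • (z - 1)⁻¹ • v by rw [sub_smul, one_smul],
        smul_smul, mul_inv_cancel₀ hne, one_smul]
    rw [htop, finrank_top, Module.finrank_fintype_fun_eq_card, Fintype.card_sum, Fintype.card_fin] at hlt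
    omega

end Cfsg.Agent.Lib.ElusK.Forward
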