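import Mathlib
import Cfsg.Agent.Lib.ElusK.Forward
import Cfsg.Agent.Lib.Elusive.OrderRank

/-!
# The implication: if all elements of order `r` normalize a conjugate of the field then `r = 2`, `d = k = 2`
-/

set_option autoImplicit false

namespace Cfsg.Agent.Lib.ElusK.Forward2

open Module Matrix Cfsg Cfsg.Geo Cfsg.Agent.Lib.ElusK.Beta Cfsg.Agent.Lib.ElusK.Model
  Cfsg.Agent.Lib.ElusK.Order Cfsg.Agent.Lib.ElusK.Act Cfsg.Agent.Lib.ElusK.Forward
  Cfsg.Agent.Lib.Classical.SympForm Cfsg.Agent.Lib.Elusive.Sympl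
open scoped MatrixGroups

variable {F : Type*} [Field F] {d : ℕ}

/-- A transvection of prime order `p`. -/
theorem exists_transvection {p : ℕ} [hp : Fact p.Prime] [CharP F p] (hd : 0 < d) :
    ∃ x₀ : (Fin d ⊕ Fin d → F) →ₗ[F] (Fin d ⊕ Fin d → F),
      (∀ u v, sympForm d F (x₀ u) (x₀ v) = sympForm d F u v) ∧ x₀ ^ p = 1 ∧ x₀ ≠ 1 ∧
        finrank F (LinearMap.range (x₀ - 1)) ≤ 1 := by
  classical
  let B := sympBilin d F
  have hB : B.IsAlt := sympBilin_isAlt
  let i0 : Fin d := ⟨0, hd⟩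
  let w : Fin d ⊕ Fin d → F := Pi.single (Sum.inl i0) 1
  let v0 : Fin d ⊕ Fin d → F := Pi.single (Sum.inr i0) 1
  have hwv0 : B w v0 = -1 := by
    change sympForm d F _ _ = _
    rw [Cfsg.Agent.Lib.Classical.SympCount.sympForm_single_single]
    simp [Matrix.J]
  have hw0 : w ≠ 0 := by
    intro h
    rw [h, map_zero] at hwv0
    have : (0 : F) = -1 := by simpa using hwv0
    exact one_ne_zero (neg_eq_zero.1 this.symm)
  let x₀ : (Fin d ⊕ Fin d → F) →ₗ[F] (Fin d ⊕ Fin d → F) := LinearMap.id + (B w).smulRight w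
  have hx : ∀ v, x₀ v = v + B w v • w := fun v => rfl
  have hww : B w w = 0 := hB w
  have hpow : ∀ (n : ℕ) v, (x₀ ^ n) v = v + (n : F) • (B w v • w) := by
    intro n
    induction n with
    | zero => intro v; simp
    | succ n ih =>
      intro v
      rw [pow_succ, Module.End.mul_apply, ih, hx]
      simp only [map_add, map_smul, hww, smul_eq_mul, mul_zero, add_zero, Nat.cast_add, Nat.cast_one, add_smul,
        one_smul]
      abel
  refine ⟨x₀, ?_, ?_, ?_, ?_⟩
  · intro u v
    change B (x₀ u) (x₀ v) = B u v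
    rw [hx, hx]
    simp only [map_add, map_smul, LinearMap.add_apply, LinearMap.smul_apply, smul_eq_mul, hww, mul_zero, add_zero]
    rw [skew hB u w]
    ring
  · refine LinearMap.ext fun v => ?_
    rw [hpow, CharP.cast_eq_zero F p, zero_smul, add_zero]
    rfl
  · intro h
    have h1 := hx v0
    rw [h] at h1
    have h2 : B w v0 • w = 0 := by
      have h3 : (1 : (Fin d ⊕ Fin d → F) →ₗ[F] (Fin d ⊕ Fin d → F)) v0 = v0 := rfl
      rw [h3] at h1
      exact (add_eq_left.1 h1.symm)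
    rw [hwv0] at h2
    rcases smul_eq_zero.1 h2 with h4 | h4
    · exact one_ne_zero (neg_eq_zero.1 h4)
    · exact hw0 h4
  · have hle : LinearMap.range (x₀ - 1) ≤ Submodule.span F {w} := by
      rintro _ ⟨v, rfl⟩
      rw [LinearMap.sub_apply, hx, Module.End.one_apply, add_sub_cancel_left]
      exact Submodule.smul_mem _ _ (Submodule.mem_span_singleton_self w)
    have h1 := Submodule.finrank_mono hle
    have h2 : finrank F (Submodule.span F {w}) = 1 := finrank_span_singleton hw0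
    omega

/-- The forward implication. -/
theorem forward [Fintype F] {p : ℕ} [hp : Fact p.Prime] [CharP F p] {q : ℕ} (hq : Fintype.card F = q)
    (hd : 2 ≤ d) {k : ℕ} (hkp : k.Prime)
    {K : Subalgebra F (Matrix (Fin d ⊕ Fin d) (Fin d ⊕ Fin d) F)} (hK : IsFieldSubalgebra k K)
    (hKf : IsSelfAdjointFor (sympForm d F) K) (hKalt : ∀ a ∈ K, ∀ v : Fin d ⊕ Fin d → F, sympForm d F (a *ᵥ v) v = 0)
    {r : ℕ} [hr : Fact r.Prime] (hΩ : r ∣ (subalgebraNormalizer K).relIndex (spGL d F))
    (P : ∀ x ∈ spGL d F, (∃ z : F, ((x ^ r : GL (Fin d ⊕ Fin d) F) : Matrix (Fin d ⊕ Fin d) (Fin d ⊕ Fin d) F) = z • (1 : Matrix (Fin d ⊕ Fin d) (Fin d ⊕ Fin d) F)) →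
      (∀ z : F, (x : Matrix (Fin d ⊕ Fin d) (Fin d ⊕ Fin d) F) ≠ z • (1 : Matrix (Fin d ⊕ Fin d) (Fin d ⊕ Fin d) F)) →
      ∃ g ∈ spGL d F, g⁻¹ * x * g ∈ subalgebraNormalizer K) :
    r = 2 ∧ d = 2 ∧ k = 2 ∧ Odd q := by
  classical
  obtain ⟨L, _, _, ρ, hρ, hKρ, hfin⟩ := Cfsg.Agent.Lib.Elusive.FieldSub.exists_field_model hK hkp.pos
  haveI : FiniteDimensional F L := Module.finite_of_finrank_pos (by rw [hfin]; exact hkp.pos)
  letI : Module L (Fin d ⊕ Fin d → F) := moduleOf ρ
  haveI : IsScalarTower F L (Fin d ⊕ Fin d → F) := towerOf ρ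
  have hsm : ∀ (a : L) (v : Fin d ⊕ Fin d → F), a • v = ρ a *ᵥ v := fun _ _ => rfl
  have hmem : ∀ a : L, ρ a ∈ K := fun a => (hKρ _).2 ⟨a, rfl⟩
  have hndS : NondegOn (sympBilin d F) ⊤ := by
    intro u _ hu
    by_contra hc
    push Not at hc
    exact hu (sympBilin_nondegenerate.1 u fun v => hc v Submodule.mem_top)
  have hkf : KForm L (sympBilin d F) :=
    { alt := sympBilin_isAlt
      nd := hndS
      sa := fun a u v => hKf _ (hmem a) u v
      kalt := fun a u => hKalt _ (hmem a) u }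
  haveI : Finite L := Module.finite_of_finite F
  letI : Fintype L := Fintype.ofFinite L
  haveI : CharP L p := charP_of_injective_algebraMap (algebraMap F L).injective p
  have hq' : Nat.card F = q := by rw [Nat.card_eq_fintype_card, hq]
  have hQ : Fintype.card L = q ^ k := by
    rw [← Nat.card_eq_fintype_card, Module.natCard_eq_pow_finrank (K := F) (V := L), hq', hfin]
  have hV : finrank F (Fin d ⊕ Fin d → F) = 2 * d := by
    rw [Module.finrank_fintype_fun_eq_card, Fintype.card_sum, Fintype.card_fin]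
    ring
  have hk2 := hkp.two_le
  obtain ⟨m, hdm, hfm⟩ := exists_m hkf
  rw [hfin] at hdm
  by_cases hrp : r = p
  · exfalso
    subst hrp
    obtain ⟨x₀, hiso, hxr, hx1, hrange⟩ := exists_transvection (F := F) (d := d) (p := r) (by omega)
    have hns := not_scalar (by omega) hiso hxr hx1 (Or.inr (by omega))
    rcases core hQ ρ hρ hsm hKρ hkf x₀ hiso hxr hx1 hrange hns P with ⟨n, h1, h2, -⟩ | ⟨h1, -⟩
    · rw [hfin] at h1
      nlinarith
    · omega
  by_cases hr2 : r = 2
  · have hp2 : p ≠ 2 := fun h => hrp (hr2.trans h.symm)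
    have hodd : Odd q := by
      obtain ⟨n, -, hn⟩ := FiniteField.card F p
      rw [← hq, hn]
      exact (hp.out.odd_of_ne_two hp2).pow
    have hdvd : r ∣ q ^ (2 * 1) - 1 := by
      rw [hr2]
      have h1 : Odd (q ^ (2 * 1)) := hodd.pow
      exact (Nat.Odd.sub_odd h1 odd_one).two_dvd
    obtain ⟨x₀, W, hiso, hxr, hx1, hrange, hW⟩ :=
      Cfsg.Agent.Lib.Elusive.SpElt.exists_isometry_small (sympBilin d F) sympBilin_isAlt hndS hq' 1 one_pos hdvd
        (by rw [hV]; omega)
    have hrange' : finrank F (LinearMap.range (x₀ - 1)) ≤ 2 * 1 := by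
      rw [← hW]
      exact Submodule.finrank_mono hrange
    have hiso' : ∀ u v, sympForm d F (x₀ u) (x₀ v) = sympForm d F u v := hiso
    have hns := not_scalar (by omega) hiso' hxr hx1 (Or.inr (by omega))
    rcases core hQ ρ hρ hsm hKρ hkf x₀ hiso' hxr hx1 hrange' hns P with ⟨n, h1, h2, h3⟩ | ⟨h1, h2⟩
    · exfalso
      rw [hfin] at h1
      obtain ⟨t, ht⟩ := (h3 hrp).1
      have : 1 ≤ t := by omega
      nlinarith
    · refine ⟨hr2, by omega, ?_, hodd⟩
      rw [hfin, hr2] at h2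
      exact ((Nat.prime_dvd_prime_iff_eq Nat.prime_two hkp).1 h2).symm
  · exfalso
    have hrq : ¬ r ∣ q := Cfsg.Agent.Lib.Elusive.OrderRank.not_dvd_card hq hr.out hrp
    obtain ⟨he0, hed, hke, hdvd⟩ := exists_order ρ hsm hKρ hkf hq' hrq hΩ (by rw [hfin]; exact hkp.pos)
    rw [hfin] at hke
    set e := orderOf (((q ^ 2 : ℕ)) : ZMod r) with he
    obtain ⟨x₀, W, hiso, hxr, hx1, hrange, hW⟩ :=
      Cfsg.Agent.Lib.Elusive.SpElt.exists_isometry_small (sympBilin d F) sympBilin_isAlt hndS hq' e he0 hdvd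
        (by rw [hV]; omega)
    have hrange' : finrank F (LinearMap.range (x₀ - 1)) ≤ 2 * e := by
      rw [← hW]
      exact Submodule.finrank_mono hrange
    have hiso' : ∀ u v, sympForm d F (x₀ u) (x₀ v) = sympForm d F u v := hiso
    have hns := not_scalar (by omega) hiso' hxr hx1 (Or.inl hr2)
    rcases core hQ ρ hρ hsm hKρ hkf x₀ hiso' hxr hx1 hrange' hns P with ⟨n, h1, h2, h3⟩ | ⟨h1, h2⟩
    · rw [hfin] at h1
      obtain ⟨heven, hord⟩ := h3 hrp
      have hqk0 : 0 < orderOf (((q ^ k : ℕ)) : ZMod r) := by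
        have h0 : (((q ^ k : ℕ)) : ZMod r) ≠ 0 := by
          intro h
          exact hrq (hr.out.dvd_of_dvd_pow ((ZMod.natCast_eq_zero_iff _ _).1 h))
        exact orderOf_pos_iff.2 (isOfFinOrder_iff_pow_eq_one.2
          ⟨r - 1, by have := hr.out.two_le; omega, ZMod.pow_card_sub_one_eq_one h0⟩)
      have hen : e ≤ n := (Nat.le_of_dvd hqk0 (Arith.e_dvd_order hkp hke)).trans hord
      have hk2' : k = 2 := by
        by_contra hne
        have : 3 ≤ k := by omega
        nlinarith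
      apply hke
      rw [hk2']
      have : e = n := by
        rw [hk2'] at h1
        omega
      rw [this]
      exact heven.two_dvd
    · rw [hfin] at h2
      have hrk : r = k := (Nat.prime_dvd_prime_iff_eq hr.out hkp).1 h2
      have h3 := Arith.two_e_le (q := q) hr2 hrq
      rw [← he] at h3
      have hm0 : 0 < m := by
        rcases Nat.eq_zero_or_pos m with h | h
        · rw [h, mul_zero] at hdm
          omega
        · exact h
      have hkd : k ≤ d := by
        rw [hdm]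
        exact Nat.le_mul_of_pos_right _ hm0
      omega

end Cfsg.Agent.Lib.ElusK.Forward2
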