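import Mathlib
import Cfsg.Agent.Lib.Elusive.Sympl

/-!
# Symplectic frames in dimension four, and elements whose square is `± 1`

A skew-free operator `A` with `A² = δ` (`δ` a non-square), self-adjoint and with `B (A v) v = 0`, and an
isometry `x` with `x² = ± 1`, `x` non-scalar: some isometry carries `x` to an element normalizing `F[A]`.
-/

set_option autoImplicit false

namespace Cfsg.Agent.Lib.ElusK.Frame4

open Module Cfsg.Agent.Lib.Elusive.Sympl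

variable {F : Type*} [Field F] {V : Type*} [AddCommGroup V] [Module F V]

/-- A symplectic frame of four vectors. -/
structure Fr (B : LinearMap.BilinForm F V) (e₁ f₁ e₂ f₂ : V) : Prop where
  h1 : B e₁ f₁ = 1
  h2 : B e₂ f₂ = 1
  o1 : B e₁ e₂ = 0
  o2 : B e₁ f₂ = 0
  o3 : B f₁ e₂ = 0
  o4 : B f₁ f₂ = 0

/-- The linear map of a frame. -/
def frMap (e₁ f₁ e₂ f₂ : V) : (Fin 4 → F) →ₗ[F] V :=
  (LinearMap.proj 0 : (Fin 4 → F) →ₗ[F] F).smulRight e₁ + (LinearMap.proj 1 : (Fin 4 → F) →ₗ[F] F).smulRight f₁ +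
    (LinearMap.proj 2 : (Fin 4 → F) →ₗ[F] F).smulRight e₂ + (LinearMap.proj 3 : (Fin 4 → F) →ₗ[F] F).smulRight f₂

theorem frMap_apply (e₁ f₁ e₂ f₂ : V) (c : Fin 4 → F) :
    frMap e₁ f₁ e₂ f₂ c = c 0 • e₁ + c 1 • f₁ + c 2 • e₂ + c 3 • f₂ := rfl

theorem frMap_form {B : LinearMap.BilinForm F V} (hB : B.IsAlt) {e₁ f₁ e₂ f₂ : V} (h : Fr B e₁ f₁ e₂ f₂)
    (c c' : Fin 4 → F) :
    B (frMap e₁ f₁ e₂ f₂ c) (frMap e₁ f₁ e₂ f₂ c') =
      c 0 * c' 1 - c 1 * c' 0 + c 2 * c' 3 - c 3 * c' 2 := by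
  simp only [frMap_apply, map_add, map_smul, LinearMap.add_apply, LinearMap.smul_apply, smul_eq_mul]
  have s1 : B f₁ e₁ = -1 := by rw [skew hB, h.h1]
  have s2 : B f₂ e₂ = -1 := by rw [skew hB, h.h2]
  have s3 : B e₂ e₁ = 0 := by rw [skew hB, h.o1, neg_zero]
  have s4 : B f₂ e₁ = 0 := by rw [skew hB, h.o2, neg_zero]
  have s5 : B e₂ f₁ = 0 := by rw [skew hB, h.o3, neg_zero]
  have s6 : B f₂ f₁ = 0 := by rw [skew hB, h.o4, neg_zero]
  rw [hB e₁, hB f₁, hB e₂, hB f₂, h.h1, h.h2, h.o1, h.o2, h.o3, h.o4, s1, s2, s3, s4, s5, s6]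
  ring

theorem frMap_injective {B : LinearMap.BilinForm F V} (hB : B.IsAlt) {e₁ f₁ e₂ f₂ : V} (h : Fr B e₁ f₁ e₂ f₂) :
    Function.Injective (frMap e₁ f₁ e₂ f₂ : (Fin 4 → F) →ₗ[F] V) := by
  rw [← LinearMap.ker_eq_bot, LinearMap.ker_eq_bot']
  intro c hc
  have key : ∀ c' : Fin 4 → F, c 0 * c' 1 - c 1 * c' 0 + c 2 * c' 3 - c 3 * c' 2 = 0 := by
    intro c'
    rw [← frMap_form hB h, hc, map_zero, LinearMap.zero_apply]
  have h0 := key ![0, 1, 0, 0]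
  have h1 := key ![1, 0, 0, 0]
  have h2 := key ![0, 0, 0, 1]
  have h3 := key ![0, 0, 1, 0]
  simp at h0 h1 h2 h3
  ext i
  fin_cases i
  · simpa using h0
  · simpa using h1
  · simpa using h2
  · simpa using h3

/-- Any two frames are conjugate by an isometry. -/
theorem exists_isom [FiniteDimensional F V] (hdim : finrank F V = 4) {B : LinearMap.BilinForm F V} (hB : B.IsAlt)
    {e₁ f₁ e₂ f₂ e₁' f₁' e₂' f₂' : V} (h : Fr B e₁ f₁ e₂ f₂) (h' : Fr B e₁' f₁' e₂' f₂') :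
    ∃ g : V ≃ₗ[F] V, (∀ u v, B (g u) (g v) = B u v) ∧ g e₁ = e₁' ∧ g f₁ = f₁' ∧ g e₂ = e₂' ∧ g f₂ = f₂' := by
  have hd : finrank F (Fin 4 → F) = finrank F V := by
    rw [hdim]
    simp
  let Θ := LinearMap.linearEquivOfInjective _ (frMap_injective hB h) hd
  let Θ' := LinearMap.linearEquivOfInjective _ (frMap_injective hB h') hd
  have hΘ : ∀ c, Θ c = frMap e₁ f₁ e₂ f₂ c := fun c => rfl
  have hΘ' : ∀ c, Θ' c = frMap e₁' f₁' e₂' f₂' c := fun c => rfl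
  have hgen : ∀ c : Fin 4 → F, Θ.symm (frMap e₁ f₁ e₂ f₂ c) = c := fun c => Θ.symm_apply_apply c
  refine ⟨Θ.symm.trans Θ', fun u v => ?_, ?_, ?_, ?_, ?_⟩
  · obtain ⟨c, rfl⟩ := Θ.surjective u
    obtain ⟨c', rfl⟩ := Θ.surjective v
    simp only [LinearEquiv.trans_apply, LinearEquiv.symm_apply_apply]
    rw [hΘ, hΘ, hΘ', hΘ', frMap_form hB h, frMap_form hB h']
  · have : e₁ = frMap e₁ f₁ e₂ f₂ (![1, 0, 0, 0] : Fin 4 → F) := by simp [frMap_apply]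
    rw [LinearEquiv.trans_apply, this, hgen, hΘ']
    simp [frMap_apply]
  · have : f₁ = frMap e₁ f₁ e₂ f₂ (![0, 1, 0, 0] : Fin 4 → F) := by simp [frMap_apply]
    rw [LinearEquiv.trans_apply, this, hgen, hΘ']
    simp [frMap_apply]
  · have : e₂ = frMap e₁ f₁ e₂ f₂ (![0, 0, 1, 0] : Fin 4 → F) := by simp [frMap_apply]
    rw [LinearEquiv.trans_apply, this, hgen, hΘ']
    simp [frMap_apply]
  · have : f₂ = frMap e₁ f₁ e₂ f₂ (![0, 0, 0, 1] : Fin 4 → F) := by simp [frMap_apply]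
    rw [LinearEquiv.trans_apply, this, hgen, hΘ']
    simp [frMap_apply]

/-- A frame spans. -/
theorem ext_frame [FiniteDimensional F V] (hdim : finrank F V = 4) {B : LinearMap.BilinForm F V} (hB : B.IsAlt)
    {e₁ f₁ e₂ f₂ : V} (h : Fr B e₁ f₁ e₂ f₂) {φ ψ : V →ₗ[F] V} (h1 : φ e₁ = ψ e₁) (h2 : φ f₁ = ψ f₁)
    (h3 : φ e₂ = ψ e₂) (h4 : φ f₂ = ψ f₂) : φ = ψ := by
  have hd : finrank F (Fin 4 → F) = finrank F V := by
    rw [hdim]
    simp
  let Θ := LinearMap.linearEquivOfInjective _ (frMap_injective hB h) hd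
  have hΘ : ∀ c, Θ c = frMap e₁ f₁ e₂ f₂ c := fun c => rfl
  refine LinearMap.ext fun v => ?_
  obtain ⟨c, rfl⟩ := Θ.surjective v
  rw [hΘ, frMap_apply]
  simp only [map_add, map_smul, h1, h2, h3, h4]

/-- The frame adapted to a field generator. -/
theorem frame_of_A [FiniteDimensional F V] (hdim : finrank F V = 4) {B : LinearMap.BilinForm F V} (hB : B.IsAlt)
    (hnd : NondegOn B ⊤) (A : V →ₗ[F] V) {δ : F} (hA2 : ∀ v, A (A v) = δ • v)
    (hsq : ∀ c : F, c ^ 2 ≠ δ) (hsa : ∀ u v, B (A u) v = B u (A v)) (halt : ∀ v, B (A v) v = 0) :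
    ∃ e₁ f₁ e₂ f₂ : V, Fr B e₁ f₁ e₂ f₂ ∧ A e₁ = e₂ ∧ A f₁ = δ • f₂ ∧ A e₂ = δ • e₁ ∧ A f₂ = f₁ := by
  have hδ : δ ≠ 0 := by
    intro h
    exact hsq 0 (by rw [h]; simp)
  haveI : Nontrivial V := Module.nontrivial_of_finrank_pos (R := F) (by omega)
  obtain ⟨e₁, he₁⟩ := exists_ne (0 : V)
  have hAe : A e₁ ≠ 0 := by
    intro h
    have h1 := hA2 e₁
    rw [h, map_zero] at h1
    exact he₁ ((smul_eq_zero.1 h1.symm).resolve_left hδ)
  -- independence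
  have hli : ∀ s : F, e₁ - s • A e₁ ≠ 0 := by
    intro s h
    have h1 : e₁ = s • A e₁ := sub_eq_zero.1 h
    have h2 : A e₁ = (s * δ) • e₁ := by
      nth_rw 1 [h1]
      rw [map_smul, hA2, smul_smul]
    have hs : s ≠ 0 := by
      rintro rfl
      rw [zero_smul] at h1
      exact he₁ h1
    have h3 : (s * s * δ - 1) • e₁ = 0 := by
      rw [sub_smul, one_smul, sub_eq_zero]
      nth_rw 2 [h1]
      rw [h2, smul_smul]
      ring_nf
    have h4 : s * s * δ = 1 := sub_eq_zero.1 ((smul_eq_zero.1 h3).resolve_right he₁)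
    apply hsq s⁻¹
    field_simp
    linear_combination -h4
  obtain ⟨w, -, hw⟩ := hnd (A e₁) Submodule.mem_top hAe
  set w' := (B (A e₁) w)⁻¹ • w with hw'
  have h1 : B (A e₁) w' = 1 := by
    rw [hw', map_smul, smul_eq_mul, inv_mul_cancel₀ hw]
  have hU := peel_nondeg hB hnd Submodule.mem_top Submodule.mem_top h1
  have he₁A : B e₁ (A e₁) = 0 := by
    rw [skew hB, halt, neg_zero]
  set u₁ := e₁ - B e₁ w' • A e₁ + B e₁ (A e₁) • w' with hu₁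
  have hu₁mem := peel_mem hB h1 e₁
  have hu₁eq : u₁ = e₁ - B e₁ w' • A e₁ := by
    rw [hu₁, he₁A, zero_smul, add_zero]
  have hu₁0 : u₁ ≠ 0 := by
    rw [hu₁eq]
    exact hli _
  obtain ⟨t₀, ht₀, ht₀ne⟩ := hU u₁ ⟨Submodule.mem_top, hu₁mem⟩ hu₁0
  obtain ⟨t, ht1, ht0⟩ : ∃ t, B u₁ t = 1 ∧ B (A e₁) t = 0 := by
    refine ⟨(B u₁ t₀)⁻¹ • t₀, ?_, ?_⟩
    · rw [map_smul, smul_eq_mul, inv_mul_cancel₀ ht₀ne]
    · rw [map_smul]
      have := (mem_perp.1 ht₀.2) (A e₁) (Submodule.subset_span (by simp))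
      rw [this, smul_zero]
  have he₁t : B e₁ t = 1 := by
    have h2 : B u₁ t = B e₁ t - B e₁ w' * B (A e₁) t := by
      rw [hu₁eq, map_sub, LinearMap.sub_apply, map_smul, LinearMap.smul_apply, smul_eq_mul]
    rw [ht1, ht0, mul_zero, sub_zero] at h2
    exact h2.symm
  refine ⟨e₁, t, A e₁, δ⁻¹ • A t, ⟨he₁t, ?_, he₁A, ?_, ?_, ?_⟩, rfl, ?_, ?_, ?_⟩
  · rw [map_smul, smul_eq_mul, ← hsa, hA2, map_smul, LinearMap.smul_apply, he₁t, smul_eq_mul, mul_one,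
      inv_mul_cancel₀ hδ]
  · rw [map_smul, smul_eq_mul, ← hsa, ht0, mul_zero]
  · rw [skew hB, ht0, neg_zero]
  · rw [map_smul, smul_eq_mul, skew hB, halt, neg_zero, mul_zero]
  · rw [smul_smul, mul_inv_cancel₀ hδ, one_smul]
  · rw [hA2]
  · rw [map_smul, hA2, smul_smul, inv_mul_cancel₀ hδ, one_smul]

/-- The frame adapted to an involution. -/
theorem frame_of_inv {B : LinearMap.BilinForm F V} (hB : B.IsAlt) (hnd : NondegOn B ⊤) (h2 : (2 : F) ≠ 0)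
    (x : V →ₗ[F] V) (hiso : ∀ u v, B (x u) (x v) = B u v) (hx2 : ∀ v, x (x v) = v) {u u' : V}
    (hu : x u ≠ u) (hu' : x u' ≠ - u') :
    ∃ e₁ f₁ e₂ f₂ : V, Fr B e₁ f₁ e₂ f₂ ∧ x e₁ = e₁ ∧ x f₁ = f₁ ∧ x e₂ = - e₂ ∧ x f₂ = - f₂ := by
  set e₁ := x u' + u' with he₁
  set e₂ := x u - u with he₂
  have hxe₁ : x e₁ = e₁ := by
    rw [he₁, map_add, hx2, add_comm]
  have hxe₂ : x e₂ = - e₂ := by
    rw [he₂, map_sub, hx2, neg_sub]
  have he₁0 : e₁ ≠ 0 := by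
    intro h
    exact hu' (eq_neg_of_add_eq_zero_left h)
  have he₂0 : e₂ ≠ 0 := by
    intro h
    exact hu (sub_eq_zero.1 h)
  obtain ⟨w, -, hw⟩ := hnd e₁ Submodule.mem_top he₁0
  obtain ⟨w', -, hw'⟩ := hnd e₂ Submodule.mem_top he₂0
  have hB1 : B e₁ (x w) = B e₁ w := by
    have := hiso e₁ w
    rwa [hxe₁] at this
  have hB2 : B e₂ (x w') = - B e₂ w' := by
    have := hiso e₂ w'
    rw [hxe₂, map_neg, LinearMap.neg_apply] at this
    linear_combination -this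
  have horth : ∀ a b : V, x a = a → x b = - b → B a b = 0 := by
    intro a b ha hb
    have h3 := hiso a b
    rw [ha, hb, map_neg] at h3
    have h4 : (2 : F) * B a b = 0 := by linear_combination -h3
    exact (mul_eq_zero.1 h4).resolve_left h2
  set c := (2 * B e₁ w)⁻¹ with hc
  set c' := (2 * B e₂ w')⁻¹ with hc'
  have hc0 : 2 * B e₁ w ≠ 0 := mul_ne_zero h2 hw
  have hc0' : 2 * B e₂ w' ≠ 0 := mul_ne_zero h2 hw'
  set f₁ := c • (w + x w) with hf₁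
  set f₂ := c' • (w' - x w') with hf₂
  have hxf₁ : x f₁ = f₁ := by
    rw [hf₁, map_smul, map_add, hx2, add_comm]
  have hxf₂ : x f₂ = - f₂ := by
    rw [hf₂, map_smul, map_sub, hx2, ← smul_neg, neg_sub]
  refine ⟨e₁, f₁, e₂, f₂, ⟨?_, ?_, ?_, ?_, ?_, ?_⟩, hxe₁, hxf₁, hxe₂, hxf₂⟩
  · rw [hf₁, map_smul, map_add, hB1, smul_eq_mul, hc, ← two_mul, inv_mul_cancel₀ hc0]
  · rw [hf₂, map_smul, map_sub, hB2, smul_eq_mul, hc', sub_neg_eq_add, ← two_mul, inv_mul_cancel₀ hc0']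
  · exact horth _ _ hxe₁ hxe₂
  · exact horth _ _ hxe₁ hxf₂
  · exact horth _ _ hxf₁ hxe₂
  · exact horth _ _ hxf₁ hxf₂

/-- Prescribing the value of `B v (x v)` when `x² = -1`. -/
theorem exists_val {B : LinearMap.BilinForm F V} (hB : B.IsAlt) (h2 : (2 : F) ≠ 0)
    (hsum : ∀ t : F, ∃ α β : F, α ^ 2 + β ^ 2 = t)
    (x : V →ₗ[F] V) (hiso : ∀ u v, B (x u) (x v) = B u v) (hx2 : ∀ v, x (x v) = - v)
    {U : Submodule F V} (hU : NondegOn B U) (hxU : ∀ u ∈ U, x u ∈ U) (hU0 : U ≠ ⊥) (t : F) :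
    ∃ v ∈ U, B v (x v) = t := by
  have hsymm : ∀ u v, B v (x u) = B u (x v) := by
    intro u v
    have h3 := hiso v (x u)
    rw [hx2, map_neg] at h3
    rw [← h3, skew hB (x v) u, neg_neg]
  have hex : ∃ u ∈ U, B u (x u) ≠ 0 := by
    by_contra hcon
    push Not at hcon
    obtain ⟨u₀, hu₀, hu₀0⟩ := Submodule.exists_mem_ne_zero_of_ne_bot hU0
    obtain ⟨w, hw, hne⟩ := hU u₀ hu₀ hu₀0
    apply hne
    have hxw : x w ∈ U := hxU w hw
    have h3 := hcon (u₀ + x w) (U.add_mem hu₀ hxw)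
    have h30 := hcon u₀ hu₀
    have h31 := hcon (x w) hxw
    have h4 := hsymm u₀ (x w)
    simp only [map_add, LinearMap.add_apply] at h3
    have h50 : B u₀ (x (x w)) = - B u₀ w := by rw [hx2, map_neg]
    have h5 : (2 : F) * B u₀ w = 0 := by
      linear_combination 2 * h50 - h3 + h30 + h31 + h4
    exact (mul_eq_zero.1 h5).resolve_left h2
  obtain ⟨u, hu, hs⟩ := hex
  obtain ⟨α, β, hαβ⟩ := hsum (t / B u (x u))
  refine ⟨α • u + β • x u, U.add_mem (U.smul_mem _ hu) (U.smul_mem _ (hxU u hu)), ?_⟩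
  simp only [map_add, map_smul, hx2, LinearMap.add_apply, LinearMap.smul_apply, smul_eq_mul, map_neg]
  rw [hB u, hB (x u), skew hB (x u) u]
  have h6 : (α ^ 2 + β ^ 2) * B u (x u) = t := by
    rw [hαβ]
    field_simp
  linear_combination h6

/-- The frame adapted to an element of square `-1`. -/
theorem frame_of_neg [FiniteDimensional F V] (hdim : finrank F V = 4) {B : LinearMap.BilinForm F V} (hB : B.IsAlt)
    (hnd : NondegOn B ⊤) (h2 : (2 : F) ≠ 0)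
    (hsum : ∀ t : F, ∃ α β : F, α ^ 2 + β ^ 2 = t)
    (x : V →ₗ[F] V) (hiso : ∀ u v, B (x u) (x v) = B u v) (hx2 : ∀ v, x (x v) = - v) {δ : F} (hδ : δ ≠ 0) :
    ∃ e₁ f₁ e₂ f₂ : V, Fr B e₁ f₁ e₂ f₂ ∧ x e₁ = f₁ ∧ x f₁ = - e₁ ∧ x e₂ = δ • f₂ ∧ x f₂ = - (δ⁻¹ • e₂) := by
  have htop : (⊤ : Submodule F V) ≠ ⊥ := by
    haveI : Nontrivial V := Module.nontrivial_of_finrank_pos (R := F) (by omega)
    exact top_ne_bot
  obtain ⟨v₁, -, hv₁⟩ := exists_val hB h2 hsum x hiso hx2 hnd (fun _ _ => Submodule.mem_top) htop 1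
  have hU := peel_nondeg hB hnd Submodule.mem_top Submodule.mem_top hv₁
  have hfin := finrank_peel hB Submodule.mem_top Submodule.mem_top hv₁
  rw [finrank_top, hdim] at hfin
  have hU0 : (⊤ ⊓ perp B (Submodule.span F {v₁, x v₁})) ≠ ⊥ := by
    intro h
    rw [h, finrank_bot] at hfin
    omega
  have hperp : ∀ u, u ∈ (⊤ ⊓ perp B (Submodule.span F {v₁, x v₁})) ↔ B v₁ u = 0 ∧ B (x v₁) u = 0 := by
    intro u
    constructor
    · rintro ⟨-, h⟩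
      exact ⟨h _ (Submodule.subset_span (by simp)), h _ (Submodule.subset_span (by simp))⟩
    · rintro ⟨h3, h4⟩
      exact ⟨Submodule.mem_top, perp_span_pair h3 h4⟩
  have hxU : ∀ u ∈ (⊤ ⊓ perp B (Submodule.span F {v₁, x v₁})), x u ∈ (⊤ ⊓ perp B (Submodule.span F {v₁, x v₁})) := by
    intro u hu
    obtain ⟨h3, h4⟩ := (hperp u).1 hu
    refine (hperp _).2 ⟨?_, ?_⟩
    · have h5 := hiso (x v₁) u
      rw [hx2, map_neg, LinearMap.neg_apply, h4] at h5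
      exact neg_eq_zero.1 h5
    · rw [hiso, h3]
  obtain ⟨v₂, hv₂, hv₂δ⟩ := exists_val hB h2 hsum x hiso hx2 hU hxU hU0 δ
  obtain ⟨h3, h4⟩ := (hperp v₂).1 hv₂
  obtain ⟨h5, h6⟩ := (hperp _).1 (hxU v₂ hv₂)
  refine ⟨v₁, x v₁, v₂, δ⁻¹ • x v₂, ⟨hv₁, ?_, h3, ?_, h4, ?_⟩, rfl, hx2 _, ?_, ?_⟩
  · rw [map_smul, smul_eq_mul, hv₂δ, inv_mul_cancel₀ hδ]
  · rw [map_smul, h5, smul_zero]
  · rw [map_smul, h6, smul_zero]
  · rw [smul_smul, mul_inv_cancel₀ hδ, one_smul]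
  · rw [map_smul, hx2, smul_neg]

end Cfsg.Agent.Lib.ElusK.Frame4
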