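import Mathlib
import Cfsg.Agent.Lib.ElusK.Frame4
import Cfsg.Agent.Lib.ElusK.Forward2

/-!
# In `Sp_4(q)`, `q` odd, all elements with scalar square normalize a conjugate of a quadratic subfield
-/

set_option autoImplicit false

namespace Cfsg.Agent.Lib.ElusK.Backward

open Module Matrix Cfsg Cfsg.Geo Cfsg.Agent.Lib.ElusK.Beta Cfsg.Agent.Lib.ElusK.Model
  Cfsg.Agent.Lib.ElusK.Order Cfsg.Agent.Lib.ElusK.Frame4
  Cfsg.Agent.Lib.Classical.SympForm Cfsg.Agent.Lib.Elusive.Sympl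
open scoped MatrixGroups

section abstract

variable {F : Type*} [Field F] {V : Type*} [AddCommGroup V] [Module F V]

/-- The conjugating isometry. -/
theorem conj_of_frames [FiniteDimensional F V] (hdim : finrank F V = 4) {B : LinearMap.BilinForm F V} (hB : B.IsAlt)
    (hnd : NondegOn B ⊤) (h2 : (2 : F) ≠ 0) (hsum : ∀ t : F, ∃ α β : F, α ^ 2 + β ^ 2 = t)
    (A : V →ₗ[F] V) {δ : F} (hA2 : ∀ v, A (A v) = δ • v) (hsq : ∀ c : F, c ^ 2 ≠ δ)
    (hsa : ∀ u v, B (A u) v = B u (A v)) (halt : ∀ v, B (A v) v = 0)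
    (x : V →ₗ[F] V) (hiso : ∀ u v, B (x u) (x v) = B u v)
    (hx : ((∀ v, x (x v) = v) ∧ (∃ u, x u ≠ u) ∧ (∃ u, x u ≠ - u)) ∨ ∀ v, x (x v) = - v) :
    ∃ h : V ≃ₗ[F] V, (∀ u v, B (h u) (h v) = B u v) ∧ ∃ ε : F, ε ^ 2 = 1 ∧
      ∀ v, h (x (h.symm (A v))) = ε • A (h (x (h.symm v))) := by
  have hδ : δ ≠ 0 := by
    intro h
    exact hsq 0 (by rw [h]; simp)
  obtain ⟨a₁, b₁, a₂, b₂, hfa, hA₁, hA₂, hA₃, hA₄⟩ := frame_of_A hdim hB hnd A hA2 hsq hsa halt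
  rcases hx with ⟨hx2, ⟨u, hu⟩, ⟨u', hu'⟩⟩ | hx2
  · obtain ⟨e₁, f₁, e₂, f₂, hfx, hx₁, hx₂, hx₃, hx₄⟩ := frame_of_inv hB hnd h2 x hiso hx2 hu hu'
    obtain ⟨h, hh, h₁, h₂, h₃, h₄⟩ := exists_isom hdim hB hfx hfa
    refine ⟨h, hh, -1, by ring, ?_⟩
    let Y : V →ₗ[F] V := (h : V →ₗ[F] V) ∘ₗ x ∘ₗ (h.symm : V →ₗ[F] V)
    have hY : ∀ v, Y v = h (x (h.symm v)) := fun v => rfl
    have hs₁ : h.symm a₁ = e₁ := by rw [← h₁, h.symm_apply_apply]
    have hs₂ : h.symm b₁ = f₁ := by rw [← h₂, h.symm_apply_apply]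
    have hs₃ : h.symm a₂ = e₂ := by rw [← h₃, h.symm_apply_apply]
    have hs₄ : h.symm b₂ = f₂ := by rw [← h₄, h.symm_apply_apply]
    have hY₁ : Y a₁ = a₁ := by rw [hY, hs₁, hx₁, h₁]
    have hY₂ : Y b₁ = b₁ := by rw [hY, hs₂, hx₂, h₂]
    have hY₃ : Y a₂ = - a₂ := by rw [hY, hs₃, hx₃, map_neg, h₃]
    have hY₄ : Y b₂ = - b₂ := by rw [hY, hs₄, hx₄, map_neg, h₄]
    have key : Y ∘ₗ A = - (A ∘ₗ Y) := by
      apply ext_frame hdim hB hfa
      · simp only [LinearMap.comp_apply, LinearMap.neg_apply, hA₁, hY₁, hY₃]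
      · simp only [LinearMap.comp_apply, LinearMap.neg_apply, hA₂, hY₂, hY₄, map_smul, smul_neg]
      · simp only [LinearMap.comp_apply, LinearMap.neg_apply, hA₃, hY₁, hY₃, map_smul, map_neg, neg_neg]
      · simp only [LinearMap.comp_apply, LinearMap.neg_apply, hA₄, hY₂, hY₄, map_neg, neg_neg]
    intro v
    rw [neg_smul, one_smul]
    exact congrArg (fun f : V →ₗ[F] V => f v) key
  · obtain ⟨e₁, f₁, e₂, f₂, hfx, hx₁, hx₂, hx₃, hx₄⟩ := frame_of_neg hdim hB hnd h2 hsum x hiso hx2 hδ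
    obtain ⟨h, hh, h₁, h₂, h₃, h₄⟩ := exists_isom hdim hB hfx hfa
    refine ⟨h, hh, 1, by ring, ?_⟩
    let Y : V →ₗ[F] V := (h : V →ₗ[F] V) ∘ₗ x ∘ₗ (h.symm : V →ₗ[F] V)
    have hY : ∀ v, Y v = h (x (h.symm v)) := fun v => rfl
    have hs₁ : h.symm a₁ = e₁ := by rw [← h₁, h.symm_apply_apply]
    have hs₂ : h.symm b₁ = f₁ := by rw [← h₂, h.symm_apply_apply]
    have hs₃ : h.symm a₂ = e₂ := by rw [← h₃, h.symm_apply_apply]
    have hs₄ : h.symm b₂ = f₂ := by rw [← h₄, h.symm_apply_apply]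
    have hY₁ : Y a₁ = b₁ := by rw [hY, hs₁, hx₁, h₂]
    have hY₂ : Y b₁ = - a₁ := by rw [hY, hs₂, hx₂, map_neg, h₁]
    have hY₃ : Y a₂ = δ • b₂ := by rw [hY, hs₃, hx₃, map_smul, h₄]
    have hY₄ : Y b₂ = - (δ⁻¹ • a₂) := by rw [hY, hs₄, hx₄, map_neg, map_smul, h₃]
    have key : Y ∘ₗ A = A ∘ₗ Y := by
      apply ext_frame hdim hB hfa
      · simp only [LinearMap.comp_apply, hA₁, hA₂, hY₁, hY₃]
      · simp only [LinearMap.comp_apply, hA₂, hA₁, hY₂, hY₄, map_smul, map_neg, smul_neg,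
          smul_smul, mul_inv_cancel₀ hδ, one_smul]
      · simp only [LinearMap.comp_apply, hA₃, hA₄, hA₂, hY₁, hY₃, map_smul]
      · simp only [LinearMap.comp_apply, hA₄, hA₃, hY₂, hY₄, map_smul, map_neg,
          smul_smul, inv_mul_cancel₀ hδ, one_smul]
    intro v
    rw [one_smul]
    exact congrArg (fun f : V →ₗ[F] V => f v) key

end abstract

section field

variable {F L : Type*} [Field F] [Field L] [Algebra F L]

/-- A generator of a quadratic extension with square in the base. -/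
theorem exists_gen [FiniteDimensional F L] (hfin : finrank F L = 2) (h2 : (2 : F) ≠ 0) :
    ∃ (a : L) (δ : F), a ^ 2 = algebraMap F L δ ∧ (∀ c : F, c ^ 2 ≠ δ) ∧ ∀ m : L, ∃ s t : F, m = algebraMap F L s + t • a := by
  have hex : ∃ b : L, ∀ s : F, algebraMap F L s ≠ b := by
    by_contra hcon
    push Not at hcon
    have htop : (⊥ : Subalgebra F L) = ⊤ := by
      rw [eq_top_iff]
      intro b _
      obtain ⟨s, hs⟩ := hcon b
      exact Algebra.mem_bot.2 ⟨s, hs⟩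
    have := Subalgebra.bot_eq_top_iff_finrank_eq_one.1 htop
    omega
  obtain ⟨b, hb⟩ := hex
  have hli : LinearIndependent F ![(1 : L), b] := by
    rw [LinearIndependent.pair_iff]
    intro s t hst
    have ht : t = 0 := by
      by_contra ht
      apply hb (-(s / t))
      have h1 : t • b = - (s • (1 : L)) := eq_neg_of_add_eq_zero_right hst
      have h2 : b = t⁻¹ • (t • b) := by rw [smul_smul, inv_mul_cancel₀ ht, one_smul]
      rw [h2, h1, Algebra.algebraMap_eq_smul_one, smul_neg, smul_smul, ← neg_smul]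
      congr 1
      field_simp
    refine ⟨?_, ht⟩
    rw [ht, zero_smul, add_zero] at hst
    exact (smul_eq_zero.1 hst).resolve_right one_ne_zero
  have hspan : Submodule.span F (Set.range ![(1 : L), b]) = ⊤ :=
    hli.span_eq_top_of_card_eq_finrank' (by simp [hfin])
  have hmem : ∀ m : L, ∃ s t : F, s • (1 : L) + t • b = m := by
    intro m
    have hm : m ∈ Submodule.span F (Set.range ![(1 : L), b]) := by rw [hspan]; trivial
    rw [Matrix.range_cons, Matrix.range_cons, Matrix.range_empty, Set.union_empty, Set.singleton_union,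
      Submodule.mem_span_pair] at hm
    exact hm
  obtain ⟨s₀, t₀, hst₀⟩ := hmem (b ^ 2)
  let a : L := b - algebraMap F L (t₀ / 2)
  have hbsplit : b = a + algebraMap F L (t₀ / 2) := by
    simp only [a, sub_add_cancel]
  have ha2 : a ^ 2 = algebraMap F L (s₀ + (t₀ / 2) ^ 2) := by
    simp only [a]
    rw [sub_sq, ← hst₀, map_add, ← map_pow, Algebra.smul_def, Algebra.smul_def, mul_one]
    have h3 : algebraMap F L t₀ = 2 * algebraMap F L (t₀ / 2) := by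
      rw [← map_ofNat (algebraMap F L) 2, ← map_mul]
      congr 1
      field_simp
    rw [h3]
    ring
  have ha : ∀ c : F, algebraMap F L c ≠ a := by
    intro c hc
    apply hb (c + t₀ / 2)
    rw [map_add, hc, ← hbsplit]
  refine ⟨a, s₀ + (t₀ / 2) ^ 2, ha2, ?_, ?_⟩
  · intro c hc
    have h4 : (a - algebraMap F L c) * (a + algebraMap F L c) = 0 := by
      have : a ^ 2 = algebraMap F L c ^ 2 := by rw [ha2, ← hc, map_pow]
      linear_combination this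
    rcases mul_eq_zero.1 h4 with h5 | h5
    · exact ha c (sub_eq_zero.1 h5).symm
    · apply ha (-c)
      rw [map_neg]
      exact (eq_neg_of_add_eq_zero_left h5).symm
  · intro m
    obtain ⟨s, t, hst⟩ := hmem m
    refine ⟨s + t * (t₀ / 2), t, ?_⟩
    rw [← hst]
    nth_rw 1 [hbsplit]
    rw [Algebra.smul_def, Algebra.smul_def, Algebra.smul_def, mul_one, map_add, map_mul]
    ring

end field

section matrix

variable {F : Type*} [Field F]

/-- Elements with square `±1` normalize a conjugate of the field. -/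
theorem backward [Fintype F] {p : ℕ} [hp : Fact p.Prime] [CharP F p] {q : ℕ} (hq : Fintype.card F = q) (hodd : Odd q)
    {K : Subalgebra F (Matrix (Fin 2 ⊕ Fin 2) (Fin 2 ⊕ Fin 2) F)} (hK : IsFieldSubalgebra 2 K)
    (hKf : IsSelfAdjointFor (sympForm 2 F) K) (hKalt : ∀ a ∈ K, ∀ v : Fin 2 ⊕ Fin 2 → F, sympForm 2 F (a *ᵥ v) v = 0)
    (x : GL (Fin 2 ⊕ Fin 2) F) (hx : x ∈ spGL 2 F)
    (hxz : ∃ z : F, ((x ^ 2 : GL (Fin 2 ⊕ Fin 2) F) : Matrix (Fin 2 ⊕ Fin 2) (Fin 2 ⊕ Fin 2) F) = z • (1 : Matrix (Fin 2 ⊕ Fin 2) (Fin 2 ⊕ Fin 2) F))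
    (hns : ∀ z : F, (x : Matrix (Fin 2 ⊕ Fin 2) (Fin 2 ⊕ Fin 2) F) ≠ z • (1 : Matrix (Fin 2 ⊕ Fin 2) (Fin 2 ⊕ Fin 2) F)) :
    ∃ g ∈ spGL 2 F, g⁻¹ * x * g ∈ subalgebraNormalizer K := by
  classical
  have hcard : Fintype.card F % 2 = 1 := by
    rw [hq]
    exact Nat.odd_iff.1 hodd
  have h2 : (2 : F) ≠ 0 := by
    intro h
    have h3 : ((2 : ℕ) : F) = 0 := by exact_mod_cast h
    have h4 := (CharP.cast_eq_zero_iff F p 2).1 h3
    have h5 : p = 2 := (Nat.prime_dvd_prime_iff_eq hp.out Nat.prime_two).1 h4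
    obtain ⟨n, -, hn⟩ := FiniteField.card F p
    rw [hq, h5] at hn
    rw [hn] at hodd
    exact (Nat.not_even_iff_odd.2 hodd) ((Nat.even_pow.2 ⟨even_two, n.pos.ne'⟩))
  have hsum : ∀ t : F, ∃ α β : F, α ^ 2 + β ^ 2 = t := by
    intro t
    obtain ⟨α, β, h⟩ := FiniteField.exists_root_sum_quadratic
      (f := Polynomial.X ^ 2 - Polynomial.C t) (g := Polynomial.X ^ 2)
      (by rw [Polynomial.degree_X_pow_sub_C (by norm_num)]; norm_num) (by simp) hcard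
    refine ⟨α, β, ?_⟩
    simp at h
    linear_combination h
  obtain ⟨L, _, _, ρ, hρ, hKρ, hfin⟩ := Cfsg.Agent.Lib.Elusive.FieldSub.exists_field_model hK (by norm_num)
  haveI : FiniteDimensional F L := Module.finite_of_finrank_pos (by rw [hfin]; norm_num)
  obtain ⟨a, δ, ha2, hsq, hspan⟩ := exists_gen hfin h2
  let Am : Matrix (Fin 2 ⊕ Fin 2) (Fin 2 ⊕ Fin 2) F := ρ a
  have hAm2 : Am * Am = δ • 1 := by
    change ρ a * ρ a = δ • 1
    rw [← map_mul, ← pow_two, ha2, AlgHom.commutes, Algebra.algebraMap_eq_smul_one]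
  have hAmem : Am ∈ K := (hKρ _).2 ⟨a, rfl⟩
  let A : (Fin 2 ⊕ Fin 2 → F) →ₗ[F] (Fin 2 ⊕ Fin 2 → F) := Matrix.toLin' Am
  have hAv : ∀ v, A v = Am *ᵥ v := fun v => Matrix.toLin'_apply _ _
  have hA2 : ∀ v, A (A v) = δ • v := by
    intro v
    rw [hAv, hAv, Matrix.mulVec_mulVec, hAm2, Matrix.smul_mulVec, Matrix.one_mulVec]
  have hsa : ∀ u v, sympBilin 2 F (A u) v = sympBilin 2 F u (A v) := by
    intro u v
    rw [hAv, hAv]
    exact hKf _ hAmem u v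
  have halt : ∀ v, sympBilin 2 F (A v) v = 0 := by
    intro v
    rw [hAv]
    exact hKalt _ hAmem v
  have hnd : NondegOn (sympBilin 2 F) ⊤ := by
    intro u _ hu
    by_contra hc
    push Not at hc
    exact hu (sympBilin_nondegenerate.1 u fun v => hc v Submodule.mem_top)
  have hdim : finrank F (Fin 2 ⊕ Fin 2 → F) = 4 := by
    rw [Module.finrank_fintype_fun_eq_card, Fintype.card_sum, Fintype.card_fin]
  let X : (Fin 2 ⊕ Fin 2 → F) →ₗ[F] (Fin 2 ⊕ Fin 2 → F) := Matrix.toLin' (x : Matrix (Fin 2 ⊕ Fin 2) (Fin 2 ⊕ Fin 2) F)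
  have hXv : ∀ v, X v = (x : Matrix (Fin 2 ⊕ Fin 2) (Fin 2 ⊕ Fin 2) F) *ᵥ v := fun v => Matrix.toLin'_apply _ _
  have hXiso : ∀ u v, sympBilin 2 F (X u) (X v) = sympBilin 2 F u v := by
    intro u v
    rw [hXv, hXv]
    exact (Cfsg.Agent.Lib.Geo.Basic.mem_spGL_iff 2 x).1 hx u v
  obtain ⟨z, hz⟩ := hxz
  have hXX : ∀ v, X (X v) = z • v := by
    intro v
    rw [hXv, hXv, Matrix.mulVec_mulVec, ← pow_two, ← Units.val_pow_eq_pow_val, hz, Matrix.smul_mulVec, Matrix.one_mulVec]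
  have hz2 : (z - 1) * (z + 1) = 0 := by
    have h1 := hXiso (Pi.single (Sum.inl 0) 1) (Pi.single (Sum.inr 0) 1)
    have h2' := hXiso (X (Pi.single (Sum.inl 0) 1)) (X (Pi.single (Sum.inr 0) 1))
    rw [h1, hXX, hXX] at h2'
    have h3 : sympBilin 2 F (Pi.single (Sum.inl 0) 1) (Pi.single (Sum.inr 0) 1) = -1 := by
      change sympForm 2 F _ _ = _
      rw [Cfsg.Agent.Lib.Classical.SympCount.sympForm_single_single]
      simp [Matrix.J]
    simp only [map_smul, LinearMap.smul_apply, smul_eq_mul, h3] at h2'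
    linear_combination -h2'
  have hcase : ((∀ v, X (X v) = v) ∧ (∃ u, X u ≠ u) ∧ (∃ u, X u ≠ - u)) ∨ ∀ v, X (X v) = - v := by
    rcases mul_eq_zero.1 hz2 with h3 | h3
    · left
      have hz1 : z = 1 := sub_eq_zero.1 h3
      refine ⟨fun v => by rw [hXX, hz1, one_smul], ?_, ?_⟩
      · by_contra hcon
        push Not at hcon
        apply hns 1
        apply Order.mat_ext
        intro v
        rw [← hXv, hcon, one_smul, Matrix.one_mulVec]
      · by_contra hcon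
        push Not at hcon
        apply hns (-1)
        apply Order.mat_ext
        intro v
        rw [← hXv, hcon, Matrix.smul_mulVec, Matrix.one_mulVec, neg_smul, one_smul]
    · right
      have hz1 : z = -1 := eq_neg_of_add_eq_zero_left h3
      intro v
      rw [hXX, hz1, neg_smul, one_smul]
  obtain ⟨h, hh, ε, hε, hconj⟩ := conj_of_frames hdim sympBilin_isAlt hnd h2 hsum A hA2 hsq hsa halt X hXiso hcase
  refine ⟨toGL h.symm, ?_, ?_⟩
  · rw [Cfsg.Agent.Lib.Geo.Basic.mem_spGL_iff]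
    intro u v
    rw [toGL_mulVec, toGL_mulVec]
    have h1 := hh (h.symm u) (h.symm v)
    rw [h.apply_symm_apply, h.apply_symm_apply] at h1
    exact h1.symm
  · set y : GL (Fin 2 ⊕ Fin 2) F := (toGL h.symm)⁻¹ * x * toGL h.symm with hy
    have hyv : ∀ v, (y : Matrix (Fin 2 ⊕ Fin 2) (Fin 2 ⊕ Fin 2) F) *ᵥ v = h (X (h.symm v)) := by
      intro v
      rw [hy, Units.val_mul, Units.val_mul, ← Matrix.mulVec_mulVec, ← Matrix.mulVec_mulVec, toGL_mulVec, toGL_inv_mulVec, hXv]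
      rfl
    have hyA : (y : Matrix (Fin 2 ⊕ Fin 2) (Fin 2 ⊕ Fin 2) F) * Am = ε • (Am * (y : Matrix (Fin 2 ⊕ Fin 2) (Fin 2 ⊕ Fin 2) F)) := by
      apply Order.mat_ext
      intro v
      rw [← Matrix.mulVec_mulVec, Matrix.smul_mulVec, ← Matrix.mulVec_mulVec, hyv, hyv, ← hAv, ← hAv, hconj]
    have e1 : ((y⁻¹ : GL (Fin 2 ⊕ Fin 2) F) : Matrix (Fin 2 ⊕ Fin 2) (Fin 2 ⊕ Fin 2) F) * (y : Matrix (Fin 2 ⊕ Fin 2) (Fin 2 ⊕ Fin 2) F) = 1 := by
      rw [← Units.val_mul, inv_mul_cancel, Units.val_one]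
    have e2 : (y : Matrix (Fin 2 ⊕ Fin 2) (Fin 2 ⊕ Fin 2) F) * ((y⁻¹ : GL (Fin 2 ⊕ Fin 2) F) : Matrix (Fin 2 ⊕ Fin 2) (Fin 2 ⊕ Fin 2) F) = 1 := by
      rw [← Units.val_mul, mul_inv_cancel, Units.val_one]
    have hAy : Am * (y : Matrix (Fin 2 ⊕ Fin 2) (Fin 2 ⊕ Fin 2) F) = ε • ((y : Matrix (Fin 2 ⊕ Fin 2) (Fin 2 ⊕ Fin 2) F) * Am) := by
      rw [hyA, smul_smul, ← pow_two, hε, one_smul]
    have hc1 : (y : Matrix (Fin 2 ⊕ Fin 2) (Fin 2 ⊕ Fin 2) F) * Am * ((y⁻¹ : GL (Fin 2 ⊕ Fin 2) F) : Matrix (Fin 2 ⊕ Fin 2) (Fin 2 ⊕ Fin 2) F) = ε • Am := by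
      rw [hyA, smul_mul_assoc, mul_assoc, e2, mul_one]
    have hc2 : ((y⁻¹ : GL (Fin 2 ⊕ Fin 2) F) : Matrix (Fin 2 ⊕ Fin 2) (Fin 2 ⊕ Fin 2) F) * Am * (y : Matrix (Fin 2 ⊕ Fin 2) (Fin 2 ⊕ Fin 2) F) = ε • Am := by
      rw [mul_assoc, hAy, mul_smul_comm, ← mul_assoc, e1, one_mul]
    have hform : ∀ m ∈ K, ∃ s t : F, m = s • 1 + t • Am := by
      intro m hm
      obtain ⟨b, rfl⟩ := (hKρ m).1 hm
      obtain ⟨s, t, rfl⟩ := hspan b
      refine ⟨s, t, ?_⟩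
      rw [map_add, AlgHom.commutes, Algebra.algebraMap_eq_smul_one, map_smul]
    have hin : ∀ s t : F, s • (1 : Matrix (Fin 2 ⊕ Fin 2) (Fin 2 ⊕ Fin 2) F) + t • Am ∈ K := by
      intro s t
      exact K.add_mem (K.smul_mem K.one_mem s) (K.smul_mem hAmem t)
    apply mem_normalizer_of_conj
    · intro m hm
      obtain ⟨s, t, rfl⟩ := hform m hm
      have : (y : Matrix (Fin 2 ⊕ Fin 2) (Fin 2 ⊕ Fin 2) F) * (s • 1 + t • Am) * ((y⁻¹ : GL (Fin 2 ⊕ Fin 2) F) : Matrix (Fin 2 ⊕ Fin 2) (Fin 2 ⊕ Fin 2) F) =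
          s • 1 + (t * ε) • Am := by
        rw [mul_add, add_mul, mul_smul_comm, mul_smul_comm, smul_mul_assoc, smul_mul_assoc, mul_one, e2, hc1, smul_smul]
      rw [this]
      exact hin _ _
    · intro m hm
      obtain ⟨s, t, rfl⟩ := hform m hm
      have : ((y⁻¹ : GL (Fin 2 ⊕ Fin 2) F) : Matrix (Fin 2 ⊕ Fin 2) (Fin 2 ⊕ Fin 2) F) * (s • 1 + t • Am) * (y : Matrix (Fin 2 ⊕ Fin 2) (Fin 2 ⊕ Fin 2) F) =
          s • 1 + (t * ε) • Am := by
        rw [mul_add, add_mul, mul_smul_comm, mul_smul_comm, smul_mul_assoc, smul_mul_assoc, mul_one, e1, hc2, smul_smul]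
      rw [this]
      exact hin _ _

end matrix

end Cfsg.Agent.Lib.ElusK.Backward
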